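import Cfsg.Prelude.Def_Local
import Cfsg.Prelude.Def_TwoFusion
import Cfsg.Agent.Solv.Core
import Cfsg.Agent.Cop.Basic
import Cfsg.Agent.SigF.Gen

set_option autoImplicit false
set_option linter.all false

/-!
Odd cores of subgroups, in the ambient group, and generic lemmas for the product fusion argument.
-/

namespace Cfsg.Agent.GPF

open Subgroup
open scoped commutatorElement

variable {G : Type*} [Group G]

/-- The odd core of the subgroup `H`, as a subgroup of the ambient group. -/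
def OO (H : Subgroup G) : Subgroup G := (Cfsg.oddCore ↥H).map H.subtype

theorem OO_le (H : Subgroup G) : OO H ≤ H := map_subtype_le _

theorem OO_top : OO (⊤ : Subgroup G) = Cfsg.oddCore G := by
  have h := Cfsg.Agent.Solv.map_pPrimeCore (G := ↥(⊤ : Subgroup G)) 2 (Subgroup.topEquiv (G := G))
  exact h

/-- normalizing from conjugation inclusions -/
theorem le_normalizer_of_conj {H K : Subgroup G} (h : ∀ g ∈ H, ∀ x ∈ K, g * x * g⁻¹ ∈ K) :
    H ≤ normalizer (K : Set G) := by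
  intro g hg
  refine Subgroup.mem_normalizer_iff.2 fun x => ⟨h g hg x, fun hx => ?_⟩
  have := h g⁻¹ (inv_mem hg) _ hx
  have e : g⁻¹ * (g * x * g⁻¹) * g⁻¹⁻¹ = x := by group
  rwa [e] at this

theorem conj_of_le {H K : Subgroup G} (h : H ≤ normalizer (K : Set G)) {g x : G} (hg : g ∈ H)
    (hx : x ∈ K) : g * x * g⁻¹ ∈ K := (Subgroup.mem_normalizer_iff.1 (h hg) x).1 hx

theorem conj_inv_of_le {H K : Subgroup G} (h : H ≤ normalizer (K : Set G)) {g x : G} (hg : g ∈ H)
    (hx : x ∈ K) : g⁻¹ * x * g ∈ K := by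
  have := conj_of_le h (inv_mem hg) hx
  rwa [inv_inv] at this

theorem odd_of_le [Finite G] {H K : Subgroup G} (h : H ≤ K) (hK : Odd (Nat.card K)) : Odd (Nat.card H) :=
  Odd.of_dvd_nat hK (Subgroup.card_dvd_of_le h)

theorem not_two_dvd {H : Subgroup G} (h : Odd (Nat.card H)) : ¬ 2 ∣ Nat.card H := by
  intro h2
  exact (Nat.not_even_iff_odd.2 h) (even_iff_two_dvd.2 h2)

theorem odd_of_not_dvd {H : Subgroup G} (h : ¬ 2 ∣ Nat.card H) : Odd (Nat.card H) := by
  rw [← Nat.not_even_iff_odd]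
  exact fun he => h (even_iff_two_dvd.1 he)

section Fin

variable [Finite G]

theorem OO_odd (H : Subgroup G) : Odd (Nat.card (OO H)) := by
  unfold OO
  rw [Subgroup.card_map_of_injective H.subtype_injective, ← Nat.coprime_two_right]
  exact Cfsg.Agent.Solv.pPrimeCore_card_coprime 2

theorem le_OO {Y H : Subgroup G} (hYH : Y ≤ H) (hodd : Odd (Nat.card Y))
    (hn : H ≤ normalizer (Y : Set G)) : Y ≤ OO H := by
  have h1 : (Y.subgroupOf H).Normal := Subgroup.normal_subgroupOf_of_le_normalizer hn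
  have h2 : (Nat.card (Y.subgroupOf H)).Coprime 2 := by
    rw [Nat.coprime_two_right, Nat.card_congr (Subgroup.subgroupOfEquivOfLe hYH).toEquiv]
    exact hodd
  have h3 := Cfsg.Agent.Solv.le_pPrimeCore h1 h2
  intro y hy
  exact ⟨⟨y, hYH hy⟩, h3 (Subgroup.mem_subgroupOf.2 hy), rfl⟩

theorem le_normalizer_OO_self (H : Subgroup G) : H ≤ normalizer (OO H : Set G) := by
  apply le_normalizer_of_conj
  rintro g hg _ ⟨y, hy, rfl⟩
  refine ⟨⟨g, hg⟩ * y * ⟨g, hg⟩⁻¹, ?_, rfl⟩
  have : (Cfsg.oddCore ↥H).Normal := inferInstance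
  exact this.conj_mem y hy _

theorem cj_OO (g : G) (H : Subgroup G) : SigF.cj g (OO H) = OO (SigF.cj g H) := by
  have key : ∀ (g : G) (H : Subgroup G), SigF.cj g (OO H) ≤ OO (SigF.cj g H) := by
    intro g H
    apply le_OO (SigF.cj_mono (OO_le H))
    · rw [SigF.card_cj]; exact OO_odd H
    · apply le_normalizer_of_conj
      intro a ha x hx
      rw [SigF.mem_cj] at ha hx ⊢
      have := conj_of_le (le_normalizer_OO_self H) ha hx
      have e : g⁻¹ * (a * x * a⁻¹) * g = g⁻¹ * a * g * (g⁻¹ * x * g) * (g⁻¹ * a * g)⁻¹ := by group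
      rwa [e]
  apply le_antisymm (key g H)
  have h2 := key g⁻¹ (SigF.cj g H)
  rw [SigF.cj_inv_cj] at h2
  have h3 := SigF.cj_mono (g := g) h2
  rwa [SigF.cj_cj_inv] at h3

theorem normalizer_le_normalizer_OO (H : Subgroup G) :
    normalizer (H : Set G) ≤ normalizer (OO H : Set G) := by
  intro g hg
  rw [SigF.mem_normalizer_iff_cj] at hg ⊢
  rw [cj_OO, hg]

theorem OO_le_OO_of_normal {N H : Subgroup G} (hNH : N ≤ H) (hn : H ≤ normalizer (N : Set G)) :
    OO N ≤ OO H :=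
  le_OO ((OO_le N).trans hNH) (OO_odd N) (hn.trans (normalizer_le_normalizer_OO N))

theorem inf_OO_le (K L : Subgroup G) : OO K ⊓ L ≤ OO (K ⊓ L) := by
  apply le_OO (inf_le_inf_right _ (OO_le K)) (odd_of_le inf_le_left (OO_odd K))
  apply le_normalizer_of_conj
  intro g hg x hx
  exact ⟨conj_of_le (le_normalizer_OO_self K) hg.1 hx.1, L.mul_mem (L.mul_mem hg.2 hx.2) (L.inv_mem hg.2)⟩

/-- the join of two odd subgroups, one normalizing the other, is odd -/
theorem odd_sup {H K : Subgroup G} (hH : Odd (Nat.card H)) (hK : Odd (Nat.card K))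
    (hn : H ≤ normalizer (K : Set G)) : Odd (Nat.card ↥(H ⊔ K)) := by
  have h1 : K.relIndex (H ⊔ K) = K.relIndex H := Cfsg.Agent.Cop.relIndex_sup_eq hn
  have h2 : Nat.card ↥(H ⊔ K) = Nat.card K * K.relIndex (H ⊔ K) := by
    have := Subgroup.relIndex_mul_relIndex ⊥ K (H ⊔ K) bot_le le_sup_right
    rw [Subgroup.relIndex_bot_left, Subgroup.relIndex_bot_left] at this
    exact this.symm
  rw [h2, h1]
  exact hK.mul (Odd.of_dvd_nat hH (Subgroup.relIndex_dvd_card K H))

/-- Fixed points modulo an odd subgroup. -/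
theorem exists_fix_mod {A D : Subgroup G} (hA : IsPGroup 2 A) (hD : Odd (Nat.card D))
    (hAD : A ≤ normalizer (D : Set G)) {n : G} (hn : ∀ a ∈ A, ⁅a, n⁆ ∈ D)
    (hnD : n ∈ normalizer (D : Set G)) :
    ∃ c : G, n⁻¹ * c ∈ D ∧ ∀ a ∈ A, a * c = c * a := by
  haveI : Fact (Nat.Prime 2) := ⟨Nat.prime_two⟩
  refine SigF.exists_fixed_coset hA (not_two_dvd hD) hAD ?_
  intro a ha
  have h1 := hn a ha
  have h2 : n⁻¹ * (a * n * a⁻¹) = n⁻¹ * ⁅a, n⁆ * n := by
    rw [commutatorElement_def]; group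
  rw [h2]
  have := (Subgroup.mem_normalizer_iff.1 (inv_mem hnD) _).1 h1
  rwa [inv_inv] at this

/-- The general form of the local lemmas. -/
theorem OO_inf_centralizer_le {H N A : Subgroup G} (hNH : N ≤ H) (hn : H ≤ normalizer (N : Set G))
    (hOO : OO H ≤ N) (hAH : A ≤ H) (hA : IsPGroup 2 A) (h : ∀ a ∈ A, ∀ n ∈ N, ⁅a, n⁆ ∈ OO H) :
    OO (H ⊓ centralizer (A : Set G)) ⊓ N ≤ OO H := by
  set C := H ⊓ centralizer (A : Set G) with hC
  set Y := OO C ⊓ N with hY
  have hYodd : Odd (Nat.card Y) := odd_of_le inf_le_left (OO_odd C)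
  have hYH : Y ≤ H := inf_le_right.trans hNH
  have hHO := le_normalizer_OO_self H
  set D := Y ⊔ OO H with hD
  have hDodd : Odd (Nat.card D) := odd_sup hYodd (OO_odd H) (hYH.trans hHO)
  have hDN : D ≤ N := sup_le inf_le_right hOO
  have hCY : C ⊓ N ≤ normalizer (Y : Set G) := by
    apply le_normalizer_of_conj
    intro g hg x hx
    exact ⟨conj_of_le (le_normalizer_OO_self C) hg.1 hx.1, conj_of_le hn hg.1.1 hx.2⟩
  have hND : N ≤ normalizer (D : Set G) := by
    intro n hn'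
    obtain ⟨c, hc1, hc2⟩ := exists_fix_mod hA (OO_odd H) (hAH.trans hHO) (fun a ha => h a ha n hn')
      (hHO (hNH hn'))
    have hcn : c = n * (n⁻¹ * c) := by group
    have hcN : c ∈ N := by rw [hcn]; exact N.mul_mem hn' (hOO hc1)
    have hcC : c ∈ C := ⟨hNH hcN, mem_centralizer_iff.2 fun a ha => hc2 a ha⟩
    have h1 : n = c * (n⁻¹ * c)⁻¹ := by group
    rw [h1]
    have hcD : c ∈ normalizer (D : Set G) := by
      have h3 : c ∈ normalizer (Y : Set G) := hCY ⟨hcC, hcN⟩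
      have h4 : c ∈ normalizer (OO H : Set G) := hHO (hNH hcN)
      rw [SigF.mem_normalizer_iff_cj] at h3 h4 ⊢
      rw [hD, SigF.cj_def, Subgroup.map_sup, ← SigF.cj_def, ← SigF.cj_def, h3, h4]
    exact mul_mem hcD (inv_mem (Subgroup.le_normalizer (Subgroup.mem_sup_right hc1)))
  have h5 : D ≤ OO N := le_OO hDN hDodd hND
  exact (le_sup_left : Y ≤ D).trans (h5.trans (OO_le_OO_of_normal hNH hn))

end Fin

end Cfsg.Agent.GPF
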