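import Cfsg.Agent.GPF.Fun

set_option autoImplicit false
set_option linter.all false

/-!
The dihedral step, conjugation of `W(x, y)`, and small facts on 2-groups.
-/

namespace Cfsg.Agent.GPF

open Subgroup
open scoped commutatorElement Pointwise

variable {G : Type*} [Group G]

theorem pgroup_sup_zpowers {w x : G} (hw : ∃ k : ℕ, w ^ 2 ^ k = 1) (hx : ∃ k : ℕ, x ^ 2 ^ k = 1)
    (hn : x ∈ normalizer (zpowers w : Set G)) : IsPGroup 2 ↥(zpowers w ⊔ zpowers x) :=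
  (isPGroup_zpowers hw).to_sup_of_normal_left' (isPGroup_zpowers hx) (by rwa [zpowers_le])

theorem pow_aux (r : G) (l : ℕ) : (r⁻¹) ^ (l + 1) * r * (r ^ (l + 1))⁻¹ = (r ^ (2 * l + 1))⁻¹ := by
  have h1 : (r⁻¹) ^ (l + 1) * r = (r ^ l)⁻¹ := by
    rw [pow_succ, inv_mul_cancel_right, inv_pow]
  rw [h1, ← mul_inv_rev, ← pow_add]
  congr 2
  ring

/-- The dihedral step. -/
theorem dihedral [Finite G] {S T : Set G} (h : LH S T) {x u : G} (hx : x ∈ S) (hu : u ∈ T) (hx2 : x ^ 2 = 1)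
    (hu2 : u ^ 2 = 1) (hx1 : x ≠ 1) (hu1 : u ≠ 1) :
    ∃ y e : G, y ∈ T ∧ y ^ 2 = 1 ∧ y ≠ 1 ∧ x * y = y * x ∧ e ∈ Oc (x * y) ∧ e * y * e⁻¹ = u ∧
      ∀ K : Subgroup G, x ∈ K → u ∈ K → y ∈ K := by
  have hxx : x * x = 1 := by rw [← pow_two, hx2]
  have huu : u * u = 1 := by rw [← pow_two, hu2]
  have hxi : x⁻¹ = x := by rw [inv_eq_iff_mul_eq_one, hxx]
  have hui : u⁻¹ = u := by rw [inv_eq_iff_mul_eq_one, huu]
  set r := x * u with hr
  have hri : r⁻¹ = u * x := by rw [hr, mul_inv_rev, hxi, hui]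
  have hsc : SemiconjBy x r r⁻¹ := by
    change x * r = r⁻¹ * x
    rw [hri, hr, ← mul_assoc, hxx, one_mul, mul_assoc, hxx, mul_one]
  have hur : u = x * r := by rw [hr, ← mul_assoc, hxx, one_mul]
  obtain ⟨k, m, hm, hkm⟩ := Nat.exists_eq_two_pow_mul_odd (orderOf_pos r).ne'
  obtain ⟨l, hl⟩ := hm
  set y := r ^ (l + 1) * u * (r ^ (l + 1))⁻¹ with hy
  set w := r ^ m with hw
  have hw2 : w ^ 2 ^ k = 1 := by
    rw [hw, ← pow_mul, mul_comm, ← hkm, pow_orderOf_eq_one]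
  have hyw : x * y = w⁻¹ := by
    have h1 : x * r ^ (l + 1) = (r⁻¹) ^ (l + 1) * x := (hsc.pow_right (l + 1)).eq
    rw [hy, ← mul_assoc, ← mul_assoc, h1, mul_assoc _ x u, ← hr, hw, hl]
    exact pow_aux r l
  have hyw' : y = x * w⁻¹ := by rw [← hyw, ← mul_assoc, hxx, one_mul]
  have hwn : x ∈ normalizer (zpowers w : Set G) := by
    have h1 : x * w * x⁻¹ = w⁻¹ := by
      have h2 : x * r ^ m = (r⁻¹) ^ m * x := (hsc.pow_right m).eq
      rw [hw, h2, inv_pow, mul_assoc, mul_inv_cancel, mul_one]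
    rw [SigF.mem_normalizer_iff_cj, SigF.cj_def, MonoidHom.map_zpowers]
    change zpowers (x * w * x⁻¹) = zpowers w
    rw [h1, zpowers_inv]
  have hyT : y ∈ T := h.pt.conj_right _ _ hu
  have hxy : x * y = y * x := by
    refine h.pt.comm _ (pgroup_sup_zpowers ⟨k, hw2⟩ (two_of_sq hx2) hwn) x hx y hyT (mem_sup_right (mem_zpowers x)) ?_
    rw [hyw']
    exact mul_mem (mem_sup_right (mem_zpowers x)) (inv_mem (mem_sup_left (mem_zpowers w)))
  have hy2 : y ^ 2 = 1 := by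
    rw [hy, conj_pow, hu2]; group
  have hy1 : y ≠ 1 := by
    intro h1
    apply hu1
    rw [hy] at h1
    have : u = (r ^ (l + 1))⁻¹ * (r ^ (l + 1) * u * (r ^ (l + 1))⁻¹) * r ^ (l + 1) := by group
    rw [this, h1]; group
  have hyi : y⁻¹ = y := by rw [inv_eq_iff_mul_eq_one, ← pow_two, hy2]
  set z := x * y with hz
  have hz1 : z ≠ 1 := by
    intro h1
    rw [hz, mul_eq_one_iff_eq_inv, hyi] at h1
    exact hx1 (h.pt.disj x hx (by rw [h1]; exact hyT))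
  have hz2 : z ^ 2 = 1 := by
    rw [hz, (show Commute x y from hxy).mul_pow 2, hx2, hy2, one_mul]
  have hxz : x * z = z * x := by rw [hz, mul_assoc x y x, ← hxy]
  have hyz : y * z = z * y := by rw [hz, ← mul_assoc, ← hxy]
  have hrz : r * z = z * r := by
    rw [hyw, hw]
    exact ((Commute.refl r).pow_right m).inv_right
  have hrjz : (r ^ (l + 1))⁻¹ * z = z * (r ^ (l + 1))⁻¹ :=
    (((show Commute r z from hrz).pow_left (l + 1)).inv_left)
  have huz : u * z = z * u := by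
    rw [hur, mul_assoc, hrz, ← mul_assoc, hxz, mul_assoc]
  have hq : ⁅(r ^ (l + 1))⁻¹, y⁆ ∈ Oc z := by
    refine q3 h.symm.pt (h.symm.loc z hz1 (two_of_sq hz2)) hyT (mem_cent.2 hyz) hx (mem_cent.2 hxz) ?_
      (mem_cent.2 hrjz)
    intro g hg
    rw [← hxy]
    exact mem_cent.1 hg
  have huy : u = (r ^ (l + 1))⁻¹ * y * (r ^ (l + 1)) := by rw [hy]; group
  have hq2 : y⁻¹ * u ∈ Oc z := by
    have h1 : ⁅(r ^ (l + 1))⁻¹, y⁆ = u * y⁻¹ := by
      rw [commutatorElement_def, huy]; group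
    rw [h1] at hq
    have h2 : y⁻¹ * u = y⁻¹ * (u * y⁻¹) * y⁻¹⁻¹ := by group
    rw [h2, hyi]
    rw [hyi] at hq
    have := Oc_conj hyz hq
    rwa [hyi] at this ⊢
  obtain ⟨e, he, he'⟩ := conj_of_coset (Oc_odd z) (cent_le_normalizer_Oc z (mem_cent.2 hyz)) hy2 hu2 hu1 hy1 hq2
  refine ⟨y, e, hyT, hy2, hy1, hxy, he, he', ?_⟩
  intro K hxK huK
  have hrK : r ∈ K := K.mul_mem hxK huK
  exact K.mul_mem (K.mul_mem (K.pow_mem hrK _) huK) (K.inv_mem (K.pow_mem hrK _))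

theorem exists_central_invol [Finite G] {Q : Subgroup G} (hQ : IsPGroup 2 Q) (hne : ∃ q ∈ Q, q ≠ 1) :
    ∃ z ∈ Q, z ^ 2 = 1 ∧ z ≠ 1 ∧ ∀ g ∈ Q, g * z = z * g := by
  haveI : Fact (Nat.Prime 2) := ⟨Nat.prime_two⟩
  obtain ⟨q, hq, hq1⟩ := hne
  haveI : Nontrivial Q := ⟨⟨⟨q, hq⟩, 1, fun h => hq1 (congrArg Subtype.val h)⟩⟩
  haveI := hQ.center_nontrivial
  have h1 : IsPGroup 2 (center Q) := hQ.to_subgroup _
  obtain ⟨n, hn⟩ := IsPGroup.iff_card.1 h1
  have h2 : 2 ∣ Nat.card (center Q) := by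
    rw [hn]
    apply dvd_pow_self
    rintro rfl
    rw [pow_zero] at hn
    have := Finite.one_lt_card_iff_nontrivial.2 (inferInstance : Nontrivial (center Q))
    omega
  obtain ⟨z, hz⟩ := exists_prime_orderOf_dvd_card' 2 h2
  have h3 : z ^ 2 = 1 := by rw [← hz, pow_orderOf_eq_one]
  have h4 : z ≠ 1 := by
    rintro rfl
    rw [orderOf_one] at hz
    exact absurd hz (by decide)
  refine ⟨((z : Q) : G), (z : Q).2, ?_, ?_, ?_⟩
  · have := congrArg (fun t : center Q => ((t : Q) : G)) h3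
    simpa using this
  · intro h5
    exact h4 (Subtype.ext (Subtype.ext h5))
  · intro g hg
    have := mem_center_iff.1 z.2 ⟨g, hg⟩
    exact congrArg Subtype.val this

section conj

variable [Finite G]

theorem cj_Oc (g t : G) : SigF.cj g (Oc t) = Oc (g * t * g⁻¹) := by
  unfold Oc
  rw [cj_OO, SigF.cj_centralizer, Set.image_singleton]

theorem cj_zpowers (g t : G) : SigF.cj g (zpowers t) = zpowers (g * t * g⁻¹) := by
  rw [SigF.cj_def, MonoidHom.map_zpowers]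
  rfl

theorem cj_sup (g : G) (H K : Subgroup G) : SigF.cj g (H ⊔ K) = SigF.cj g H ⊔ SigF.cj g K := by
  rw [SigF.cj_def, Subgroup.map_sup, ← SigF.cj_def, ← SigF.cj_def]

theorem cj_comm (g : G) (H K : Subgroup G) : SigF.cj g ⁅H, K⁆ = ⁅SigF.cj g H, SigF.cj g K⁆ := by
  rw [SigF.cj_def, map_commutator, ← SigF.cj_def, ← SigF.cj_def]

theorem cj_WW (g x y : G) : SigF.cj g (WW x y) = WW (g * x * g⁻¹) (g * y * g⁻¹) := by
  have e : g * (x * y) * g⁻¹ = g * x * g⁻¹ * (g * y * g⁻¹) := by group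
  unfold WW th thE
  simp only [cj_sup, cj_comm, cj_Oc, cj_zpowers, SigF.cj_inf, e]

theorem WW_symm {x y : G} (hx : x ^ 2 = 1) (hy : y ^ 2 = 1) (hxy : x * y = y * x) : WW x y = WW y x := by
  have h1 : thE x y y = thE y x x := by
    unfold thE
    rw [inf_comm (Oc y), ← hxy]
    congr 1
    refine (comm_eq_of_mul hx hy hxy (fun k hk => (Oc_comm hk).symm) ?_).symm
    exact cent_le_normalizer_Oc _ (mem_cent.2 (by rw [mul_assoc x y x, ← hxy]))
  unfold WW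
  rw [h1, sup_comm (th x y)]

end conj

end Cfsg.Agent.GPF
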