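import Cfsg.Agent.GPF.Loc3

set_option autoImplicit false
set_option linter.all false

/-!
Small elementary abelian 2-subgroups, and coprime action of 2-groups on odd subgroups.
-/

namespace Cfsg.Agent.GPF

open Subgroup
open scoped commutatorElement Pointwise

variable {G : Type*} [Group G]

theorem mem_zpowers_invol {x : G} (hx : x ^ 2 = 1) {a : G} : a ∈ zpowers x ↔ a = 1 ∨ a = x := by
  constructor
  · intro ha
    obtain ⟨k, hk⟩ := mem_zpowers_iff.1 ha
    obtain ⟨j, rfl | rfl⟩ := Int.even_or_odd' k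
    · left
      rw [← hk, zpow_mul]
      have : x ^ (2 : ℤ) = 1 := by rw [← hx]; norm_cast
      rw [this, one_zpow]
    · right
      rw [← hk, zpow_add, zpow_mul, zpow_one]
      have : x ^ (2 : ℤ) = 1 := by rw [← hx]; norm_cast
      rw [this, one_zpow, one_mul]
  · rintro (rfl | rfl)
    · exact one_mem _
    · exact mem_zpowers _

theorem mem_sup_zpowers {B : Subgroup G} {y : G} (hy : y ^ 2 = 1) (hB : ∀ b ∈ B, b * y = y * b) {c : G} :
    c ∈ B ⊔ zpowers y ↔ c ∈ B ∨ ∃ a ∈ B, c = a * y := by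
  constructor
  · intro hc
    have h1 : B ≤ normalizer (zpowers y : Set G) := by
      apply le_normalizer_of_conj
      intro b hb z hz
      rcases (mem_zpowers_invol hy).1 hz with rfl | rfl
      · simp
      · rw [hB b hb]; simp
    obtain ⟨b, hb, z, hz, rfl⟩ := mem_sup_norm h1 hc
    rcases (mem_zpowers_invol hy).1 hz with rfl | rfl
    · left; rwa [mul_one]
    · right; exact ⟨b, hb, rfl⟩
  · rintro (hc | ⟨a, ha, rfl⟩)
    · exact mem_sup_left hc
    · exact mul_mem (mem_sup_left ha) (mem_sup_right (mem_zpowers y))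

theorem elem_of {A : Subgroup G} (h1 : ∀ a ∈ A, ∀ b ∈ A, a * b = b * a) (h2 : ∀ a ∈ A, a ^ 2 = 1) :
    Cfsg.IsElementaryAbelian 2 A :=
  ⟨IsMulCommutative.of_comm fun x y => Subtype.ext (h1 x x.2 y y.2), h2⟩

theorem elem_zpowers {x : G} (hx : x ^ 2 = 1) : Cfsg.IsElementaryAbelian 2 (zpowers x) := by
  refine elem_of ?_ ?_
  · intro a ha b hb
    rcases (mem_zpowers_invol hx).1 ha with rfl | rfl <;> rcases (mem_zpowers_invol hx).1 hb with rfl | rfl <;> simp
  · intro a ha
    rcases (mem_zpowers_invol hx).1 ha with rfl | rfl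
    · simp
    · exact hx

theorem elem_sup_zpowers {B : Subgroup G} (hB : Cfsg.IsElementaryAbelian 2 B) {y : G} (hy : y ^ 2 = 1)
    (hBy : ∀ b ∈ B, b * y = y * b) : Cfsg.IsElementaryAbelian 2 (B ⊔ zpowers y) := by
  have hc : ∀ a ∈ B, ∀ b ∈ B, a * b = b * a := fun a ha b hb => SigF.elem_comm hB ha hb
  refine elem_of ?_ ?_
  · intro a ha b hb
    rcases (mem_sup_zpowers hy hBy).1 ha with ha' | ⟨a, ha', rfl⟩ <;>
      rcases (mem_sup_zpowers hy hBy).1 hb with hb' | ⟨b, hb', rfl⟩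
    · exact hc _ ha' _ hb'
    · rw [← mul_assoc, hc _ ha' _ hb', mul_assoc, hBy _ ha', ← mul_assoc]
    · rw [mul_assoc, ← hBy _ hb', ← mul_assoc, hc _ ha' _ hb', mul_assoc]
    · have h1 : a * y * (b * y) = (a * b) * (y * y) := by
        rw [mul_assoc, ← mul_assoc y b y, ← hBy b hb']; group
      have h2 : b * y * (a * y) = (b * a) * (y * y) := by
        rw [mul_assoc, ← mul_assoc y a y, ← hBy a ha']; group
      rw [h1, h2, hc a ha' b hb']
  · intro a ha
    rcases (mem_sup_zpowers hy hBy).1 ha with ha' | ⟨a, ha', rfl⟩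
    · exact hB.2 _ ha'
    · have h1 : (a * y) ^ 2 = a ^ 2 * y ^ 2 := (show Commute a y from hBy a ha').mul_pow 2
      rw [h1, hB.2 a ha', hy, one_mul]

theorem card_sup_zpowers [Finite G] {B : Subgroup G} {y : G} (hyB : y ∉ B) :
    2 * Nat.card B ≤ Nat.card ↥(B ⊔ zpowers y) := by
  have h1 : B < B ⊔ zpowers y := by
    refine lt_of_le_of_ne le_sup_left fun h => hyB ?_
    rw [h]
    exact mem_sup_right (mem_zpowers y)
  obtain ⟨k, hk⟩ := Subgroup.card_dvd_of_le h1.le
  have h2 : 0 < Nat.card B := Nat.card_pos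
  have h3 : Nat.card B ≠ Nat.card ↥(B ⊔ zpowers y) := by
    intro h
    exact h1.ne (Subgroup.eq_of_le_of_card_ge h1.le h.symm.le)
  have h4 : 0 < Nat.card ↥(B ⊔ zpowers y) := Nat.card_pos
  rw [hk] at h3 h4 ⊢
  have h5 : k ≠ 0 := by rintro rfl; simp at h4
  have h6 : k ≠ 1 := by rintro rfl; simp at h3
  have h7 : 2 ≤ k := by omega
  rw [mul_comm]
  exact Nat.mul_le_mul_left _ h7

theorem card_zpowers_invol {x : G} (hx : x ^ 2 = 1) (hx1 : x ≠ 1) : Nat.card (zpowers x) = 2 := by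
  rw [Nat.card_zpowers, orderOf_eq_prime hx hx1]

/-- The data of a four-group with two chosen generators. -/
structure Four (x x' : G) : Prop where
  sq : x ^ 2 = 1
  sq' : x' ^ 2 = 1
  ne : x ≠ 1
  ne' : x' ≠ 1
  nee : x ≠ x'
  comm : x * x' = x' * x

/-- the four-group -/
def V4 (x x' : G) : Subgroup G := zpowers x ⊔ zpowers x'

namespace Four

variable {x x' : G}

theorem comm_zpowers (h : Four x x') : ∀ b ∈ zpowers x, b * x' = x' * b := by
  intro b hb
  rcases (mem_zpowers_invol h.sq).1 hb with rfl | rfl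
  · simp
  · exact h.comm

theorem mem_iff (h : Four x x') {a : G} : a ∈ V4 x x' ↔ a = 1 ∨ a = x ∨ a = x' ∨ a = x * x' := by
  unfold V4
  rw [mem_sup_zpowers h.sq' h.comm_zpowers]
  constructor
  · rintro (ha | ⟨b, hb, rfl⟩)
    · rcases (mem_zpowers_invol h.sq).1 ha with rfl | rfl <;> simp
    · rcases (mem_zpowers_invol h.sq).1 hb with rfl | rfl <;> simp
  · rintro (rfl | rfl | rfl | rfl)
    · exact Or.inl (one_mem _)
    · exact Or.inl (mem_zpowers _)
    · exact Or.inr ⟨1, one_mem _, by simp⟩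
    · exact Or.inr ⟨_, mem_zpowers _, rfl⟩

theorem elem (h : Four x x') : Cfsg.IsElementaryAbelian 2 (V4 x x') :=
  elem_sup_zpowers (elem_zpowers h.sq) h.sq' h.comm_zpowers

theorem mem_left (x x' : G) : x ∈ V4 x x' := mem_sup_left (mem_zpowers x)

theorem mem_right (x x' : G) : x' ∈ V4 x x' := mem_sup_right (mem_zpowers x')

theorem card_ge [Finite G] (h : Four x x') : 4 ≤ Nat.card (V4 x x') := by
  have h1 := card_sup_zpowers (B := zpowers x) (y := x') (by
    intro h1
    rcases (mem_zpowers_invol h.sq).1 h1 with h2 | h2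
    · exact h.ne' h2
    · exact h.nee h2.symm)
  rw [card_zpowers_invol h.sq h.ne] at h1
  exact h1

theorem symm (h : Four x x') : Four x' x :=
  ⟨h.sq', h.sq, h.ne', h.ne, h.nee.symm, h.comm.symm⟩

end Four

section coprime

variable [Finite G] {A K : Subgroup G}

theorem coprime_two_odd (hA : IsPGroup 2 A) (hK : Odd (Nat.card K)) : (Nat.card A).Coprime (Nat.card K) := by
  haveI : Fact (Nat.Prime 2) := ⟨Nat.prime_two⟩
  obtain ⟨n, hn⟩ := IsPGroup.iff_card.1 hA
  rw [hn]
  exact (Nat.coprime_two_left.2 hK).pow_left n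

theorem solv_of_two (hA : IsPGroup 2 A) : Group.IsSolvable A := by
  haveI : Fact (Nat.Prime 2) := ⟨Nat.prime_two⟩
  have h5 : Group.IsNilpotent A := hA.isNilpotent
  infer_instance

theorem sup_fix (hA : IsPGroup 2 A) (hK : Odd (Nat.card K)) (hAK : A ≤ normalizer (K : Set G)) :
    ⁅K, A⁆ ⊔ (K ⊓ centralizer (A : Set G)) = K :=
  Cfsg.Agent.Cop.commutator_sup_centralizer hAK (coprime_two_odd hA hK) (Or.inl (solv_of_two hA))

theorem comm_comm (hA : IsPGroup 2 A) (hK : Odd (Nat.card K)) (hAK : A ≤ normalizer (K : Set G)) :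
    ⁅⁅K, A⁆, A⁆ = ⁅K, A⁆ :=
  Cfsg.Agent.Cop.commutator_commutator_eq hAK (coprime_two_odd hA hK) (Or.inl (solv_of_two hA))

theorem comm_le (hAK : A ≤ normalizer (K : Set G)) : ⁅K, A⁆ ≤ K :=
  le_normalizer_iff_commutator_le_left.1 hAK

/-- splitting off the commutator with an involution -/
theorem le_of_split {x : G} (hx : x ^ 2 = 1) (hK : Odd (Nat.card K)) (hxK : x ∈ normalizer (K : Set G))
    {L : Subgroup G} (h1 : ⁅K, zpowers x⁆ ≤ L) (h2 : K ⊓ centralizer {x} ≤ L) : K ≤ L := by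
  rw [← sup_fix (isPGroup_zpowers ⟨1, by rw [pow_one]; exact hx⟩) hK (by rwa [zpowers_le]), centralizer_zpowers_eq]
  exact sup_le h1 h2

/-- generation by fixed points of four-groups -/
theorem le_of_four {A : Subgroup G} (hA : Cfsg.IsElementaryAbelian 2 A) (hA4 : 4 ≤ Nat.card A)
    (hK : Odd (Nat.card K)) (hAK : A ≤ normalizer (K : Set G)) {L : Subgroup G}
    (h : ∀ a ∈ A, a ≠ 1 → K ⊓ centralizer {a} ≤ L) : K ≤ L := by
  haveI : Fact (Nat.Prime 2) := ⟨Nat.prime_two⟩
  have h1 := SigF.eq_of_fixed_le (A := A) (K := K) (H := K ⊓ L) hA hA4 (not_two_dvd hK) hAK inf_le_left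
    (fun a ha ha1 => le_inf inf_le_left (h a ha ha1))
  rw [← h1]
  exact inf_le_right

end coprime

end Cfsg.Agent.GPF
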