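import Cfsg.Agent.GPF.Elem

set_option autoImplicit false
set_option linter.all false

/-!
The basic facts on the odd cores of centralizers.
-/

namespace Cfsg.Agent.GPF

open Subgroup
open scoped commutatorElement Pointwise

variable {G : Type*} [Group G]

/-- `O(C_G(t))` -/
def Oc (t : G) : Subgroup G := OO (centralizer {t})

/-- The conclusion holds in the centralizers of the nontrivial 2-elements. -/
structure LH (S T : Set G) : Prop where
  pt : PT S T
  loc : ∀ t : G, t ≠ 1 → (∃ k : ℕ, t ^ 2 ^ k = 1) → LocC S T (centralizer {t})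

theorem LH.symm {S T : Set G} (h : LH S T) : LH T S := ⟨h.pt.symm, fun t ht ht' => (h.loc t ht ht').symm⟩

/-- The generation statement used for the action of four-groups. -/
def Gen29 (G : Type*) [Group G] : Prop := ∀ A Y : Subgroup G, Cfsg.IsElementaryAbelian 2 A → 4 ≤ Nat.card A →
  Odd (Nat.card Y) → A ≤ normalizer (Y : Set G) → ⁅Y, A⁆ = Y → ∀ K : Subgroup G,
    (∀ a ∈ A, a ≠ 1 → Y ⊓ centralizer (A : Set G) ⊓ ⁅Y ⊓ centralizer {a}, A⁆ ≤ K) → Y ⊓ centralizer (A : Set G) ≤ K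

theorem mem_cent {a t : G} : a ∈ centralizer ({t} : Set G) ↔ a * t = t * a := mem_centralizer_singleton_iff

variable [Finite G] {S T : Set G}

theorem Oc_le (t : G) : Oc t ≤ centralizer {t} := OO_le _

theorem Oc_odd (t : G) : Odd (Nat.card (Oc t)) := OO_odd _

theorem cent_le_normalizer_Oc (t : G) : centralizer {t} ≤ normalizer (Oc t : Set G) := le_normalizer_OO_self _

theorem Oc_conj {t g e : G} (hg : g * t = t * g) (he : e ∈ Oc t) : g * e * g⁻¹ ∈ Oc t :=
  conj_of_le (cent_le_normalizer_Oc t) (mem_cent.2 hg) he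

theorem Oc_comm {t e : G} (he : e ∈ Oc t) : e * t = t * e := mem_cent.1 (Oc_le t he)

theorem mem_loc {x t e : G} (he : e ∈ Oc x) (het : e * t = t * e) :
    e ∈ OO (centralizer {t} ⊓ centralizer {x}) := by
  have := inf_OO_le (centralizer {x}) (centralizer {t}) ⟨he, mem_cent.2 het⟩
  rwa [inf_comm] at this

theorem q1c (h : LH S T) {x t e v : G} (hx : x ∈ S) (ht : t ≠ 1) (ht2 : ∃ k : ℕ, t ^ 2 ^ k = 1)
    (hxt : x * t = t * x) (he : e ∈ Oc x) (het : e * t = t * e) (hv : v ∈ T) (hvt : v * t = t * v) :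
    ⁅e, v⁆ ∈ Oc t :=
  q1 h.pt (h.loc t ht ht2) hx (mem_cent.2 hxt) (mem_loc he het) (mem_NN hv (mem_cent.2 hvt))

theorem q1n (h : LH S T) {x t e v : G} (hx : x ∈ S) (ht : t ≠ 1) (ht2 : ∃ k : ℕ, t ^ 2 ^ k = 1)
    (hxt : x * t = t * x) (he : e ∈ OO (centralizer {t} ⊓ centralizer {x}))
    (hv : v ∈ NN T (centralizer {t})) : ⁅e, v⁆ ∈ Oc t :=
  q1 h.pt (h.loc t ht ht2) hx (mem_cent.2 hxt) he hv

/-- both cores -/
theorem t1 (h : LH S T) {x y t e : G} (hx : x ∈ S) (hy : y ∈ T) (ht : t ≠ 1) (ht2 : ∃ k : ℕ, t ^ 2 ^ k = 1)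
    (hxt : x * t = t * x) (hyt : y * t = t * y) (hex : e ∈ Oc x) (hey : e ∈ Oc y) (het : e * t = t * e) :
    e ∈ Oc t :=
  q2 h.pt (h.loc t ht ht2) hx (mem_cent.2 hxt) (mem_loc hex het) fun n hn =>
    q1n h.symm hy ht ht2 hyt (mem_loc hey het) hn

theorem two_of_sq {x : G} (hx : x ^ 2 = 1) : ∃ k : ℕ, x ^ 2 ^ k = 1 := ⟨1, by rw [pow_one]; exact hx⟩

/-- Fact A -/
theorem fa (h : LH S T) (h29 : Gen29 G) {A : Subgroup G} (hA : Cfsg.IsElementaryAbelian 2 A)
    (hA4 : 4 ≤ Nat.card A) (hAT : ∀ a ∈ A, a ∈ T) {x : G} (hx : x ∈ S) (hxA : ∀ a ∈ A, x * a = a * x) {y : G}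
    (hy : y ∈ A) (hy1 : y ≠ 1) : ⁅Oc x, A⁆ ⊓ centralizer {y} ≤ Oc y := by
  have hA2 : IsPGroup 2 A := SigF.isPGroup_of_elem hA
  have hAc : A ≤ centralizer ({x} : Set G) := fun a ha => mem_cent.2 (hxA a ha).symm
  have hAO : A ≤ normalizer (Oc x : Set G) := hAc.trans (cent_le_normalizer_Oc x)
  set Y := ⁅Oc x, A⁆ with hY
  have hYO : Y ≤ Oc x := comm_le hAO
  have hYodd : Odd (Nat.card Y) := odd_of_le hYO (Oc_odd x)
  have hAY : A ≤ normalizer (Y : Set G) := normalizer_commutator_ge_right _ _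
  have hYA : ⁅Y, A⁆ = Y := comm_comm hA2 (Oc_odd x) hAO
  have hcom : ∀ a ∈ A, ∀ b ∈ A, a * b = b * a := fun a ha b hb => SigF.elem_comm hA ha hb
  -- the commutators
  have key : ∀ t ∈ A, t ≠ 1 → ⁅Y ⊓ centralizer {t}, A⁆ ≤ Oc t := by
    intro t ht ht1
    rw [commutator_le]
    intro e he v hv
    exact q1c h hx ht1 (two_of_sq (hA.2 t ht)) (hxA t ht) (hYO he.1) (mem_cent.1 he.2) (hAT v hv) (hcom v hv t ht)
  have hfix : Y ⊓ centralizer (A : Set G) ≤ Oc y := by
    refine h29 A Y hA hA4 hYodd hAY hYA _ ?_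
    intro a ha ha1 e he
    have he1 : e ∈ Oc a := key a ha ha1 he.2
    have he2 : e ∈ Oc x := hYO he.1.1
    exact t1 h hx (hAT a ha) hy1 (two_of_sq (hA.2 y hy)) (hxA y hy) (hcom a ha y hy) he2 he1
      (mem_centralizer_iff.1 he.1.2 y hy).symm
  set U := Y ⊓ centralizer ({y} : Set G) with hU
  have hAU : A ≤ normalizer (U : Set G) := by
    apply le_normalizer_of_conj
    intro a ha u hu
    refine ⟨conj_of_le hAY ha hu.1, ?_⟩
    have h1 : a ∈ centralizer ({y} : Set G) := mem_cent.2 (hcom a ha y hy)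
    exact Subgroup.mul_mem _ (Subgroup.mul_mem _ h1 hu.2) (Subgroup.inv_mem _ h1)
  rw [← sup_fix hA2 (odd_of_le inf_le_left hYodd : Odd (Nat.card U)) hAU]
  exact sup_le (key y hy hy1) ((inf_le_inf_right _ inf_le_left).trans hfix)

/-- The local subgroup of the functor. -/
def th (x y : G) : Subgroup G := ⁅Oc x, zpowers y⁆ ⊔ (Oc x ⊓ Oc y)

theorem th_le (x y : G) (hxy : x * y = y * x) : th x y ≤ Oc x := by
  refine sup_le (comm_le ?_) inf_le_left
  rw [zpowers_le]
  exact cent_le_normalizer_Oc x (mem_cent.2 hxy.symm)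

/-- Fact D: independence of `y` -/
theorem th_le_th (h : LH S T) (h29 : Gen29 G) {A : Subgroup G} (hA : Cfsg.IsElementaryAbelian 2 A)
    (hA4 : 4 ≤ Nat.card A) (hAT : ∀ a ∈ A, a ∈ T) {x : G} (hx : x ∈ S) (hxA : ∀ a ∈ A, x * a = a * x) {y y' : G}
    (hy : y ∈ A) (hy' : y' ∈ A) (hy1' : y' ≠ 1) : th x y ≤ th x y' := by
  have hA2 : IsPGroup 2 A := SigF.isPGroup_of_elem hA
  have hcom : ∀ a ∈ A, ∀ b ∈ A, a * b = b * a := fun a ha b hb => SigF.elem_comm hA ha hb
  have hAc : A ≤ centralizer ({x} : Set G) := fun a ha => mem_cent.2 (hxA a ha).symm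
  have hAO : A ≤ normalizer (Oc x : Set G) := hAc.trans (cent_le_normalizer_Oc x)
  have hYO : ⁅Oc x, A⁆ ≤ Oc x := comm_le hAO
  have hy'A : zpowers y' ≤ A := by rwa [zpowers_le]
  have hyA : zpowers y ≤ A := by rwa [zpowers_le]
  have hsq' := hA.2 y' hy'
  refine sup_le ?_ ?_
  · refine (commutator_mono le_rfl hyA).trans ?_
    refine le_of_split hsq' (odd_of_le hYO (Oc_odd x)) (normalizer_commutator_ge_right _ _ hy') ?_ ?_
    · exact (commutator_mono hYO le_rfl).trans le_sup_left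
    · refine le_trans (le_inf ?_ (fa h h29 hA hA4 hAT hx hxA hy' hy1')) le_sup_right
      exact inf_le_left.trans hYO
  · refine le_of_split hsq' (odd_of_le inf_le_left (Oc_odd x)) ?_ ?_ ?_
    · have h1 : y' ∈ normalizer (Oc x : Set G) := hAO hy'
      have h2 : y' ∈ normalizer (Oc y : Set G) := cent_le_normalizer_Oc y (mem_cent.2 (hcom y' hy' y hy))
      rw [SigF.mem_normalizer_iff_cj] at h1 h2 ⊢
      rw [SigF.cj_inf, h1, h2]
    · exact (commutator_mono inf_le_left le_rfl).trans le_sup_left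
    · refine le_trans ?_ le_sup_right
      intro e he
      refine ⟨he.1.1, ?_⟩
      exact t1 h hx (hAT y hy) hy1' (two_of_sq hsq') (hxA y' hy') (hcom y hy y' hy') he.1.1 he.1.2 (mem_cent.1 he.2)

theorem th_eq_th (h : LH S T) (h29 : Gen29 G) {A : Subgroup G} (hA : Cfsg.IsElementaryAbelian 2 A)
    (hA4 : 4 ≤ Nat.card A) (hAT : ∀ a ∈ A, a ∈ T) {x : G} (hx : x ∈ S) (hxA : ∀ a ∈ A, x * a = a * x) {y y' : G}
    (hy : y ∈ A) (hy1 : y ≠ 1) (hy' : y' ∈ A) (hy1' : y' ≠ 1) : th x y = th x y' :=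
  le_antisymm (th_le_th h h29 hA hA4 hAT hx hxA hy hy' hy1') (th_le_th h h29 hA hA4 hAT hx hxA hy' hy hy1)

theorem cent_inf_mul {x y : G} (hxy : x * y = y * x) :
    centralizer ({x} : Set G) ⊓ centralizer {x * y} = centralizer {x} ⊓ centralizer {y} := by
  ext g
  constructor
  · rintro ⟨h1, h2⟩
    refine ⟨h1, mem_cent.2 ?_⟩
    replace h1 := mem_cent.1 h1
    replace h2 := mem_cent.1 h2
    have h3 : y = x⁻¹ * (x * y) := by group
    have h4 : g * x⁻¹ = x⁻¹ * g := by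
      rw [eq_inv_mul_iff_mul_eq, ← mul_assoc, mul_inv_eq_iff_eq_mul]
      exact h1.symm
    rw [h3, ← mul_assoc, h4, mul_assoc, h2, ← mul_assoc]
  · rintro ⟨h1, h2⟩
    refine ⟨h1, mem_cent.2 ?_⟩
    replace h1 := mem_cent.1 h1
    replace h2 := mem_cent.1 h2
    rw [← mul_assoc, h1, mul_assoc, h2, mul_assoc]

/-- Fact C -/
theorem fc (h : LH S T) (h29 : Gen29 G) {x x' y : G} (h4 : Four x x') (hx : x ∈ S) (hx' : x' ∈ S)
    (hy : y ∈ T) (hxy : x * y = y * x) (hx'y : x' * y = y * x') :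
    ⁅Oc (x * y), zpowers x⁆ ⊓ centralizer {x} ≤ Oc x := by
  set z := x * y with hz
  set A := V4 x x' with hAdef
  have hA := h4.elem
  have hA4 := h4.card_ge
  have hA2 : IsPGroup 2 A := SigF.isPGroup_of_elem hA
  have hcom : ∀ a ∈ A, ∀ b ∈ A, a * b = b * a := fun a ha b hb => SigF.elem_comm hA ha hb
  have hxA : x ∈ A := Four.mem_left x x'
  have hx'A : x' ∈ A := Four.mem_right x x'
  have hAy : ∀ a ∈ A, a * y = y * a := by
    intro a ha
    have h1 : A ≤ centralizer ({y} : Set G) := by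
      rw [hAdef, V4]
      exact sup_le (by rw [zpowers_le]; exact mem_cent.2 hxy) (by rw [zpowers_le]; exact mem_cent.2 hx'y)
    exact mem_cent.1 (h1 ha)
  have hAz : ∀ a ∈ A, a * z = z * a := by
    intro a ha
    rw [hz, ← mul_assoc, hcom a ha x hxA, mul_assoc, hAy a ha, mul_assoc]
  have hAS : ∀ a ∈ A, a ∈ S := by
    intro a ha
    rcases h4.mem_iff.1 ha with rfl | rfl | rfl | rfl
    · exact h.pt.one_left
    · exact hx
    · exact hx'
    · exact h.pt.mul_left A hA2 _ hx _ hx' hxA hx'A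
  have hAO : A ≤ normalizer (Oc z : Set G) := fun a ha => cent_le_normalizer_Oc z (mem_cent.2 (hAz a ha))
  set Y := ⁅Oc z, A⁆ with hY
  have hYO : Y ≤ Oc z := comm_le hAO
  have hYodd : Odd (Nat.card Y) := odd_of_le hYO (Oc_odd z)
  have hAY : A ≤ normalizer (Y : Set G) := normalizer_commutator_ge_right _ _
  have hYA : ⁅Y, A⁆ = Y := comm_comm hA2 (Oc_odd z) hAO
  have hyY : y ∈ normalizer (Y : Set G) := by
    have h1 : y ∈ normalizer (Oc z : Set G) := cent_le_normalizer_Oc z (mem_cent.2 (by rw [hz, ← mul_assoc, ← hxy]))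
    have h2 : y ∈ normalizer (A : Set G) :=
      Subgroup.centralizer_le_normalizer _ (mem_centralizer_iff.2 fun a ha => hAy a ha)
    rw [SigF.mem_normalizer_iff_cj] at h1 h2 ⊢
    rw [hY, SigF.cj_def, map_commutator, ← SigF.cj_def, ← SigF.cj_def, h1, h2]
  have hx2 := two_of_sq h4.sq
  -- elements of `O(C(z))` centralizing `x`, in the centralizer of `x`
  have hloc : ∀ e : G, e ∈ Oc z → e * x = x * e → e ∈ OO (centralizer {x} ⊓ centralizer {y}) := by
    intro e he hex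
    rw [← cent_inf_mul hxy]
    exact mem_loc he hex
  have hq : ∀ e : G, e ∈ Oc z → e * x = x * e → ∀ n ∈ NN S (centralizer {x}), ⁅e, n⁆ ∈ Oc x := by
    intro e he hex n hn
    exact q1n h.symm hy h4.ne hx2 hxy.symm (hloc e he hex) hn
  have key1 : ∀ W : Subgroup G, W ≤ Oc z ⊓ centralizer {x} → ⁅W, A⁆ ≤ Oc x := by
    intro W hW
    rw [commutator_le]
    intro e he v hv
    exact hq e (hW he).1 (mem_cent.1 (hW he).2) v (mem_NN (hAS v hv) (mem_cent.2 (hcom v hv x hxA)))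
  -- the other elements of `A`
  have key2 : ∀ a ∈ A, a ≠ 1 → a ≠ x → ⁅Y ⊓ centralizer {a}, A⁆ ≤ Oc a := by
    intro a ha ha1 hax
    have hVodd : Odd (Nat.card ↥(Y ⊓ centralizer ({a} : Set G))) := odd_of_le inf_le_left hYodd
    have ha2 := two_of_sq (hA.2 a ha)
    have hb : ∀ v ∈ Y ⊓ centralizer ({a} : Set G), ⁅v, x⁆ ∈ Oc a := by
      intro v hv
      refine b4 h.symm.pt (h.symm.loc a ha1 ha2) hy (mem_cent.2 (hAy a ha).symm) hx (mem_cent.2 (hcom x hxA a ha))
        inf_le_right hVodd ?_ ?_ hv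
      · intro w hw
        refine ⟨conj_of_le hAY hxA hw.1, ?_⟩
        have h1 : x ∈ centralizer ({a} : Set G) := mem_cent.2 (hcom x hxA a ha)
        exact Subgroup.mul_mem _ (Subgroup.mul_mem _ h1 hw.2) (Subgroup.inv_mem _ h1)
      · intro w hw
        rw [← hxy]
        exact (Oc_comm (hYO hw.1)).symm
    have hva : ∀ v ∈ Y ⊓ centralizer ({a} : Set G), ⁅v, a⁆ = 1 := by
      intro v hv
      rw [commutatorElement_eq_one_iff_mul_comm]
      exact mem_cent.1 hv.2
    have hN : ∀ g ∈ A, ∀ e ∈ Oc a, g * e * g⁻¹ ∈ Oc a := fun g hg e he => Oc_conj (hcom g hg a ha) he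
    have hmul : ∀ v b c : G, ⁅v, b * c⁆ = ⁅v, b⁆ * (b * ⁅v, c⁆ * b⁻¹) := by
      intro v b c
      simp only [commutatorElement_def]; group
    rw [commutator_le]
    intro v hv b hb'
    rcases h4.mem_iff.1 ha with ha0 | ha0 | ha0 | ha0
    · exact absurd ha0 ha1
    · exact absurd ha0 hax
    · rcases h4.mem_iff.1 hb' with hb0 | hb0 | hb0 | hb0
      · rw [hb0, commutatorElement_one_right]; exact one_mem _
      · rw [hb0]; exact hb v hv
      · rw [hb0, ← ha0, hva v hv]; exact one_mem _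
      · rw [hb0, ← ha0, hmul, hva v hv]
        exact mul_mem (hb v hv) (by simpa using one_mem (Oc a))
    · have hx'e : x' = x * a := by
        rw [ha0, ← mul_assoc, ← pow_two, h4.sq, one_mul]
      rcases h4.mem_iff.1 hb' with hb0 | hb0 | hb0 | hb0
      · rw [hb0, commutatorElement_one_right]; exact one_mem _
      · rw [hb0]; exact hb v hv
      · rw [hb0, hx'e, hmul, hva v hv]
        exact mul_mem (hb v hv) (by simpa using one_mem (Oc a))
      · rw [hb0, ← ha0, hva v hv]; exact one_mem _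
  have hfix : Y ⊓ centralizer (A : Set G) ≤ Oc x := by
    refine h29 A Y hA hA4 hYodd hAY hYA _ ?_
    intro a ha ha1 e he
    by_cases hax : a = x
    · rw [hax] at he
      exact key1 _ (inf_le_inf_right _ hYO) he.2
    · have he1 : e ∈ Oc a := key2 a ha ha1 hax he.2
      have hez : e ∈ Oc z := hYO he.1.1
      have hex : e * x = x * e := (mem_centralizer_iff.1 he.1.2 x hxA).symm
      exact q2 h.pt (h.loc x h4.ne hx2) (hAS a ha) (mem_cent.2 (hcom a ha x hxA)) (mem_loc he1 hex) (hq e hez hex)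
  have hxz : zpowers x ≤ A := by rw [zpowers_le]; exact hxA
  set W := ⁅Oc z, zpowers x⁆ ⊓ centralizer ({x} : Set G) with hW
  have hWY : W ≤ Y := inf_le_left.trans (commutator_mono le_rfl hxz)
  have hAW : A ≤ normalizer (W : Set G) := by
    intro a ha
    have h1 : a ∈ normalizer (Oc z : Set G) := hAO ha
    have h2 : a ∈ normalizer (zpowers x : Set G) :=
      Subgroup.centralizer_le_normalizer _ (by
        rw [centralizer_zpowers_eq]; exact mem_cent.2 (hcom a ha x hxA))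
    have h3 : a ∈ normalizer (centralizer ({x} : Set G) : Set G) :=
      Subgroup.le_normalizer (mem_cent.2 (hcom a ha x hxA))
    rw [SigF.mem_normalizer_iff_cj] at h1 h2 h3 ⊢
    rw [hW, SigF.cj_inf, h3, SigF.cj_def, map_commutator, ← SigF.cj_def, ← SigF.cj_def, h1, h2]
  rw [← sup_fix hA2 (odd_of_le hWY hYodd) hAW]
  exact sup_le (key1 W (le_inf (hWY.trans hYO) inf_le_right)) ((inf_le_inf_right _ hWY).trans hfix)

end Cfsg.Agent.GPF
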