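import Cfsg.Agent.GPF.Fact

set_option autoImplicit false
set_option linter.all false

/-!
The signalizer functor on a subgroup of order eight and the odd subgroup `W(x, y)`.
-/

namespace Cfsg.Agent.GPF

open Subgroup
open scoped commutatorElement Pointwise

variable {G : Type*} [Group G]

/-- The form of the signalizer functor theorem which is used. -/
def SFT2 (G : Type*) [Group G] : Prop := ∀ (A : Subgroup G) (θ : G → Subgroup G), Cfsg.IsElementaryAbelian 2 A →
  8 ≤ Nat.card A → Cfsg.IsSignalizerFunctor 2 A θ → (∀ a ∈ A, a ≠ 1 → Odd (Nat.card (θ a))) →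
  Cfsg.IsCompleteSignalizerFunctor 2 A θ

/-- two commuting four-groups in `S` and `T` -/
structure Ctx (S T : Set G) (x x' y y' : G) : Prop where
  fx : Four x x'
  fy : Four y y'
  hx : x ∈ S
  hx' : x' ∈ S
  hy : y ∈ T
  hy' : y' ∈ T
  xy : x * y = y * x
  xy' : x * y' = y' * x
  x'y : x' * y = y * x'
  x'y' : x' * y' = y' * x'

namespace Ctx

variable {S T : Set G} {x x' y y' : G}

theorem symm (c : Ctx S T x x' y y') : Ctx T S y y' x x' :=
  ⟨c.fy, c.fx, c.hy, c.hy', c.hx, c.hx', c.xy.symm, c.x'y.symm, c.xy'.symm, c.x'y'.symm⟩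

theorem mem_left (h : PT S T) (c : Ctx S T x x' y y') {a : G} (ha : a ∈ V4 x x') : a ∈ S := by
  rcases c.fx.mem_iff.1 ha with rfl | rfl | rfl | rfl
  · exact h.one_left
  · exact c.hx
  · exact c.hx'
  · exact h.mul_left _ (SigF.isPGroup_of_elem c.fx.elem) _ c.hx _ c.hx' (Four.mem_left _ _) (Four.mem_right _ _)

theorem comm (c : Ctx S T x x' y y') {a b : G} (ha : a ∈ V4 x x') (hb : b ∈ V4 y y') : a * b = b * a := by
  have h1 : V4 x x' ≤ centralizer ({y} : Set G) ⊓ centralizer {y'} := by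
    unfold V4
    refine sup_le ?_ ?_ <;> rw [zpowers_le]
    · exact ⟨mem_cent.2 c.xy, mem_cent.2 c.xy'⟩
    · exact ⟨mem_cent.2 c.x'y, mem_cent.2 c.x'y'⟩
  have h2 : V4 y y' ≤ centralizer ({a} : Set G) := by
    unfold V4
    refine sup_le ?_ ?_ <;> rw [zpowers_le]
    · exact mem_cent.2 (mem_cent.1 (h1 ha).1).symm
    · exact mem_cent.2 (mem_cent.1 (h1 ha).2).symm
  exact (mem_cent.1 (h2 hb)).symm

theorem ne_of_mem (h : PT S T) (c : Ctx S T x x' y y') {a b : G} (ha : a ∈ V4 x x') (hb : b ∈ V4 y y') (ha1 : a ≠ 1) :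
    a ≠ b := by
  rintro rfl
  exact ha1 (h.disj a (c.mem_left h ha) (c.symm.mem_left h.symm hb))

/-- replace `x` by another element of the four-group -/
theorem change (h : PT S T) (c : Ctx S T x x' y y') {a : G} (ha : a ∈ V4 x x') (ha1 : a ≠ 1) :
    ∃ a', Ctx S T a a' y y' ∧ V4 a a' = V4 x x' := by
  have key : ∀ a' ∈ V4 x x', a' ≠ 1 → a ≠ a' → Ctx S T a a' y y' := by
    intro a' ha' ha1' hne
    exact ⟨⟨c.fx.elem.2 a ha, c.fx.elem.2 a' ha', ha1, ha1', hne, SigF.elem_comm c.fx.elem ha ha'⟩, c.fy,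
      c.mem_left h ha, c.mem_left h ha', c.hy, c.hy', c.comm ha (Four.mem_left _ _), c.comm ha (Four.mem_right _ _),
      c.comm ha' (Four.mem_left _ _), c.comm ha' (Four.mem_right _ _)⟩
  have hle : ∀ a' ∈ V4 x x', V4 a a' ≤ V4 x x' := by
    intro a' ha'
    unfold V4
    refine sup_le ?_ ?_ <;> rw [zpowers_le]
    · exact ha
    · exact ha'
  by_cases hax : a = x
  · refine ⟨x', key x' (Four.mem_right _ _) c.fx.ne' (by rw [hax]; exact c.fx.nee), by rw [hax]⟩
  · refine ⟨x, key x (Four.mem_left _ _) c.fx.ne hax, le_antisymm (hle x (Four.mem_left _ _)) ?_⟩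
    rcases c.fx.mem_iff.1 ha with h1 | h1 | h1 | h1
    · exact absurd h1 ha1
    · exact absurd h1 hax
    · rw [h1, V4, V4, sup_comm]
    · have hx'e : x' = x * a := by
        rw [h1, ← mul_assoc, ← pow_two, c.fx.sq, one_mul]
      unfold V4
      refine sup_le ?_ ?_ <;> rw [zpowers_le]
      · exact mem_sup_right (mem_zpowers _)
      · rw [hx'e]
        exact mul_mem (mem_sup_right (mem_zpowers _)) (mem_sup_left (mem_zpowers _))

end Ctx

variable [Finite G] {S T : Set G} {x x' y y' : G}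

theorem comm_zpowers_le {K L : Subgroup G} (hy : y ^ 2 = 1) (h : ∀ u ∈ K, ⁅u, y⁆ ∈ L) : ⁅K, zpowers y⁆ ≤ L := by
  rw [commutator_le]
  intro u hu v hv
  rcases (mem_zpowers_invol hy).1 hv with rfl | rfl
  · rw [commutatorElement_one_right]; exact one_mem _
  · exact h u hu

/-- the local subgroups, general form; `e` is `1` or `y` -/
def thE (a e y : G) : Subgroup G := ⁅Oc (a * e), zpowers y⁆ ⊔ (Oc a ⊓ Oc y)

theorem thE_one (a y : G) : thE a 1 y = th a y := by
  unfold thE th
  rw [mul_one]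

/-- `[K, y] = [K, x]` if `xy` centralizes `K` -/
theorem comm_eq_of_mul {K : Subgroup G} (hx : x ^ 2 = 1) (hy : y ^ 2 = 1) (hxy : x * y = y * x)
    (hK : ∀ k ∈ K, (x * y) * k = k * (x * y)) (hxK : x ∈ normalizer (K : Set G)) : ⁅K, zpowers x⁆ = ⁅K, zpowers y⁆ := by
  have key : ∀ u ∈ K, ⁅u, x⁆ = ⁅u, y⁆ := by
    intro u hu
    have h1 := hK u⁻¹ (inv_mem hu)
    have hx1 : x⁻¹ = x := by rw [inv_eq_iff_mul_eq_one, ← pow_two, hx]
    have hy1 : y⁻¹ = y := by rw [inv_eq_iff_mul_eq_one, ← pow_two, hy]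
    have h2 : x * u⁻¹ * x⁻¹ = y * u⁻¹ * y⁻¹ := by
      rw [hx1, hy1]
      have h3 : y * (x * (y * u⁻¹)) = y * (u⁻¹ * (x * y)) := by rw [← mul_assoc x, h1]
      have h4 : y * (x * (y * u⁻¹)) = x * u⁻¹ := by
        rw [← mul_assoc y x, ← hxy, mul_assoc x y, ← mul_assoc y y, ← pow_two, hy, one_mul]
      rw [h4, hxy] at h3
      calc x * u⁻¹ * x = y * (u⁻¹ * (y * x)) * x := by rw [h3]
        _ = y * u⁻¹ * y * (x ^ 2) := by rw [pow_two]; group
        _ = y * u⁻¹ * y := by rw [hx, mul_one]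
    rw [commutatorElement_def, commutatorElement_def]
    have e1 : u * x * u⁻¹ * x⁻¹ = u * (x * u⁻¹ * x⁻¹) := by group
    have e2 : u * y * u⁻¹ * y⁻¹ = u * (y * u⁻¹ * y⁻¹) := by group
    rw [e1, e2, h2]
  apply le_antisymm
  · apply comm_zpowers_le hx
    intro u hu
    rw [key u hu]
    exact commutator_mem_commutator hu (mem_zpowers y)
  · apply comm_zpowers_le hy
    intro u hu
    rw [← key u hu]
    exact commutator_mem_commutator hu (mem_zpowers x)

/-- `O_a ∩ O_y` is in the core of `ay` -/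
theorem inf_le_mul (h : LH S T) (c : Ctx S T x x' y y') : Oc x ⊓ Oc y ≤ Oc (x * y) := by
  intro e he
  have h1 : (x * y) ^ 2 = 1 := by
    rw [(show Commute x y from c.xy).mul_pow 2, c.fx.sq, c.fy.sq, one_mul]
  refine t1 h c.hx c.hy ?_ (two_of_sq h1) (by rw [mul_assoc x y x, ← c.xy]) (by rw [← mul_assoc, ← c.xy])
    he.1 he.2 ?_
  · intro h2
    have h3 : x = y := by
      rw [mul_eq_one_iff_eq_inv] at h2
      rw [h2, inv_eq_iff_mul_eq_one, ← pow_two, c.fy.sq]
    exact c.ne_of_mem h.pt (Four.mem_left _ _) (Four.mem_left _ _) c.fx.ne h3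
  · have h2 := Oc_comm he.1
    have h3 := Oc_comm he.2
    rw [← mul_assoc, h2, mul_assoc, h3, mul_assoc]

theorem sup_inf_cent_le {K L : Subgroup G} (hKL : L ≤ normalizer (K : Set G)) (hL : L ≤ centralizer {y}) :
    (K ⊔ L) ⊓ centralizer {y} ≤ (K ⊓ centralizer {y}) ⊔ L := by
  rintro g ⟨hg, hgy⟩
  rw [SetLike.mem_coe, sup_comm] at hg
  obtain ⟨l, hl, k, hk, rfl⟩ := mem_sup_norm hKL hg
  have h1 : k ∈ centralizer ({y} : Set G) := by
    have : k = l⁻¹ * (l * k) := by group
    rw [this]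
    exact Subgroup.mul_mem _ (Subgroup.inv_mem _ (hL hl)) hgy
  exact mul_mem (mem_sup_right hl) (mem_sup_left ⟨hk, h1⟩)

theorem thE_norm (hxy : x * y = y * x) {e : G} (he : e = 1 ∨ e = y) {g : G} (hgx : g * x = x * g)
    (hgy : g * y = y * g) : g ∈ normalizer (thE x e y : Set G) := by
  have hge : g * (x * e) = x * e * g := by
    rcases he with rfl | rfl
    · rw [mul_one]; exact hgx
    · rw [← mul_assoc, hgx, mul_assoc, hgy, mul_assoc]
  have h1 : g ∈ normalizer (Oc x : Set G) := cent_le_normalizer_Oc x (mem_cent.2 hgx)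
  have h2 : g ∈ normalizer (Oc y : Set G) := cent_le_normalizer_Oc y (mem_cent.2 hgy)
  have h3 : g ∈ normalizer (Oc (x * e) : Set G) := cent_le_normalizer_Oc _ (mem_cent.2 hge)
  have h4 : g ∈ normalizer (zpowers y : Set G) :=
    Subgroup.centralizer_le_normalizer _ (by rw [centralizer_zpowers_eq]; exact mem_cent.2 hgy)
  rw [SigF.mem_normalizer_iff_cj] at h1 h2 h3 h4 ⊢
  have e1 : SigF.cj g (thE x e y) = ⁅SigF.cj g (Oc (x * e)), SigF.cj g (zpowers y)⁆ ⊔ (SigF.cj g (Oc x ⊓ Oc y)) := by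
    rw [SigF.cj_def, thE, Subgroup.map_sup, map_commutator, SigF.cj_def, SigF.cj_def, SigF.cj_def]
  rw [e1, SigF.cj_inf, h1, h2, h3, h4, thE]

theorem thE_le (h : LH S T) (c : Ctx S T x x' y y') {e : G} (he : e = 1 ∨ e = y) : thE x e y ≤ Oc (x * e) := by
  refine sup_le (comm_le ?_) ?_
  · rw [zpowers_le]
    refine cent_le_normalizer_Oc _ (mem_cent.2 ?_)
    rcases he with rfl | rfl
    · rw [mul_one]; exact c.xy.symm
    · rw [← mul_assoc, ← c.xy]
  · rcases he with rfl | rfl
    · rw [mul_one]; exact inf_le_left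
    · exact inf_le_mul h c

/-- fixed points of `y` -/
theorem thE_inf_le (h : LH S T) (h29 : Gen29 G) (c : Ctx S T x x' y y') {e : G} (he : e = 1 ∨ e = y) :
    thE x e y ⊓ centralizer {y} ≤ Oc x ⊓ Oc y := by
  have hK : Oc x ⊓ Oc y ≤ normalizer ((⁅Oc (x * e), zpowers y⁆ : Subgroup G) : Set G) := by
    refine le_trans ?_ (normalizer_commutator_ge_left _ _)
    rcases he with rfl | rfl
    · rw [mul_one]; exact inf_le_left
    · exact inf_le_mul h c
  refine (sup_inf_cent_le hK (inf_le_right.trans (Oc_le y))).trans (sup_le ?_ le_rfl)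
  rcases he with rfl | rfl
  · rw [mul_one]
    refine le_inf (inf_le_left.trans (comm_le ?_)) ?_
    · rw [zpowers_le]; exact cent_le_normalizer_Oc x (mem_cent.2 c.xy.symm)
    · refine le_trans (inf_le_inf_right _ (commutator_mono le_rfl ?_)) (fa h h29 c.fy.elem c.fy.card_ge
        (fun a ha => c.symm.mem_left h.pt.symm ha) c.hx (fun a ha => c.comm (Four.mem_left _ _) ha)
        (Four.mem_left _ _) c.fy.ne)
      rw [zpowers_le]; exact Four.mem_left _ _
  · have hx2 := c.fx.sq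
    have hy2 := c.fy.sq
    have hcomm : ⁅Oc (x * e), zpowers x⁆ = ⁅Oc (x * e), zpowers e⁆ := by
      refine comm_eq_of_mul hx2 hy2 c.xy (fun k hk => (Oc_comm hk).symm) ?_
      exact cent_le_normalizer_Oc _ (mem_cent.2 (by rw [mul_assoc x e x, ← c.xy]))
    have hle : ⁅Oc (x * e), zpowers e⁆ ≤ Oc (x * e) := comm_le (by
      rw [zpowers_le]; exact cent_le_normalizer_Oc _ (mem_cent.2 (by rw [← mul_assoc, ← c.xy])))
    have hcent : ⁅Oc (x * e), zpowers e⁆ ⊓ centralizer {e} ≤ centralizer {x} := by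
      rintro g ⟨hg, hge⟩
      have h1 := hle hg
      have h2 := Oc_le _ h1
      have h3 : g ∈ centralizer ({e} : Set G) ⊓ centralizer {e * x} := ⟨hge, by rwa [← c.xy]⟩
      rw [cent_inf_mul c.xy.symm] at h3
      exact h3.2
    refine le_inf ?_ ?_
    · refine le_trans (le_inf inf_le_left hcent) ?_
      rw [← hcomm]
      exact fc h h29 c.fx c.hx c.hx' c.hy c.xy c.x'y
    · have := fc h.symm h29 c.fy c.hy c.hy' c.hx c.xy.symm c.xy'.symm
      rwa [← c.xy] at this

/-- The main balance step. -/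
theorem balE (h : LH S T) (h29 : Gen29 G) (c : Ctx S T x x' y y') {b : G} (hb : b ∈ V4 x x') (hb1 : b ≠ 1)
    {e e' : G} (he : e = 1 ∨ e = y) (he' : e' = 1 ∨ e' = y) :
    thE x e y ⊓ centralizer {b * e'} ≤ thE b e' y := by
  have hxV := Four.mem_left x x'
  have hbx : b * x = x * b := SigF.elem_comm c.fx.elem hb hxV
  have hby : b * y = y * b := c.comm hb (Four.mem_left _ _)
  have hb2 : b ^ 2 = 1 := c.fx.elem.2 b hb
  have hyV := Four.mem_left y y'
  obtain ⟨b', cb, -⟩ := c.change h.pt hb hb1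
  set t := b * e' with ht
  have he'2 : e' ^ 2 = 1 := by
    rcases he' with h0 | h0
    · rw [h0, one_pow]
    · rw [h0]; exact c.fy.sq
  have hbe' : b * e' = e' * b := by
    rcases he' with h0 | h0
    · rw [h0, mul_one, one_mul]
    · rw [h0]; exact hby
  have ht2 : t ^ 2 = 1 := by
    rw [ht, (show Commute b e' from hbe').mul_pow 2, hb2, he'2, one_mul]
  have ht1 : t ≠ 1 := by
    rcases he' with h0 | h0
    · rw [ht, h0, mul_one]; exact hb1
    · rw [ht, h0]
      intro h2
      rw [mul_eq_one_iff_eq_inv] at h2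
      refine c.ne_of_mem h.pt hb hyV hb1 ?_
      rw [h2, inv_eq_iff_mul_eq_one, ← pow_two, c.fy.sq]
  have hxt : x * t = t * x := by
    rcases he' with h0 | h0
    · rw [ht, h0, mul_one]; exact hbx.symm
    · rw [ht, h0, ← mul_assoc, ← hbx, mul_assoc, c.xy, mul_assoc]
  have hyt : y * t = t * y := by
    rcases he' with h0 | h0
    · rw [ht, h0, mul_one]; exact hby.symm
    · rw [ht, h0, ← mul_assoc, ← hby]
  have hyb : b * y = y * b := hby
  set U := thE x e y ⊓ centralizer ({t} : Set G) with hU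
  have hUO : U ≤ Oc (x * e) := inf_le_left.trans (thE_le h c he)
  have hUodd : Odd (Nat.card U) := odd_of_le hUO (Oc_odd _)
  have hyU : y ∈ normalizer (U : Set G) := by
    have h1 := thE_norm (e := e) c.xy he c.xy.symm (rfl : y * y = y * y)
    have h2 : y ∈ normalizer (centralizer ({t} : Set G) : Set G) := Subgroup.le_normalizer (mem_cent.2 hyt)
    rw [SigF.mem_normalizer_iff_cj] at h1 h2 ⊢
    rw [hU, SigF.cj_inf, h1, h2]
  have hcom : ∀ u ∈ U, ⁅u, y⁆ ∈ Oc t := by
    intro u hu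
    rcases he with h0 | h0
    · rw [h0, mul_one] at hUO
      exact q1c h c.hx ht1 (two_of_sq ht2) hxt (hUO hu) (mem_cent.1 hu.2) c.hy hyt
    · rw [h0] at hUO
      refine b4 h.pt (h.loc t ht1 (two_of_sq ht2)) c.hx (mem_cent.2 hxt) c.hy (mem_cent.2 hyt) (V := U)
        inf_le_right hUodd ?_ ?_ hu
      · intro v hv
        exact (Subgroup.mem_normalizer_iff.1 hyU v).1 hv
      · intro v hv
        exact (Oc_comm (hUO hv)).symm
  have hcU : ⁅U, zpowers y⁆ ≤ Oc t := comm_zpowers_le c.fy.sq hcom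
  have hyUz : zpowers y ≤ normalizer (U : Set G) := by rwa [zpowers_le]
  refine le_of_split c.fy.sq hUodd hyU ?_ ?_
  · rw [← comm_comm (isPGroup_zpowers (two_of_sq c.fy.sq)) hUodd hyUz]
    exact (commutator_mono hcU le_rfl).trans le_sup_left
  · refine le_trans ?_ le_sup_right
    intro g hg
    have h1 := thE_inf_le h h29 c he ⟨hg.1.1, hg.2⟩
    refine ⟨?_, h1.2⟩
    refine t1 h c.hx c.hy hb1 (two_of_sq hb2) hbx.symm hby.symm h1.1 h1.2 ?_
    -- g commutes with b
    have h2 : g * t = t * g := mem_cent.1 hg.1.2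
    have h3 : g * y = y * g := mem_cent.1 hg.2
    rcases he' with h0 | h0
    · rwa [ht, h0, mul_one] at h2
    · have hyy : y * y = 1 := by rw [← pow_two, c.fy.sq]
      have h4 : b = t * y := by rw [ht, h0, mul_assoc, hyy, mul_one]
      have h5 : Commute g (t * y) := (show Commute g t from h2).mul_right h3
      rw [← h4] at h5
      exact h5

/-- the functor -/
noncomputable def fct (x y : G) (B : Subgroup G) (c : G) : Subgroup G :=
  open Classical in if c = y then th y x else if c ∈ B then thE c 1 y else thE (c * y) y y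

theorem fct_y (x y : G) (B : Subgroup G) : fct x y B y = th y x := by
  unfold fct; rw [if_pos rfl]

theorem fct_mem (h : PT S T) (c : Ctx S T x x' y y') {a : G} (ha : a ∈ V4 x x') (ha1 : a ≠ 1) :
    fct x y (V4 x x') a = thE a 1 y := by
  unfold fct
  rw [if_neg (c.ne_of_mem h ha (Four.mem_left _ _) ha1), if_pos ha]

theorem fct_mul (h : PT S T) (c : Ctx S T x x' y y') {a : G} (ha : a ∈ V4 x x') (ha1 : a ≠ 1) :
    fct x y (V4 x x') (a * y) = thE a y y := by
  have hyy : y * y = 1 := by rw [← pow_two, c.fy.sq]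
  unfold fct
  rw [if_neg, if_neg, mul_assoc, hyy, mul_one]
  · intro h1
    have h2 : y ∈ V4 x x' := by
      have : y = a⁻¹ * (a * y) := by group
      rw [this]
      exact mul_mem (inv_mem ha) h1
    exact c.ne_of_mem h h2 (Four.mem_left _ _) c.fy.ne rfl
  · intro h1
    rw [mul_eq_right] at h1
    exact ha1 h1

/-- `W(x, y)` -/
def WW (x y : G) : Subgroup G := th x y ⊔ th y x ⊔ thE x y y

theorem exists_W (h : LH S T) (h29 : Gen29 G) (hsft : SFT2 G) (c : Ctx S T x x' y y') :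
    ∃ X : Subgroup G, Odd (Nat.card X) ∧ ∀ a ∈ V4 x x', a ≠ 1 → WW a y = X := by
  set B := V4 x x' with hB
  have hBe := c.fx.elem
  have hyV := Four.mem_left y y'
  have hBy : ∀ b ∈ B, b * y = y * b := fun b hb => c.comm hb hyV
  have hyB : y ∉ B := fun hy => c.ne_of_mem h.pt hy hyV c.fy.ne rfl
  set A := B ⊔ zpowers y with hA
  have hAe : Cfsg.IsElementaryAbelian 2 A := elem_sup_zpowers hBe c.fy.sq hBy
  have hA8 : 8 ≤ Nat.card A := by
    have h1 := card_sup_zpowers hyB
    have h2 := c.fx.card_ge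
    exact le_trans (Nat.mul_le_mul_left 2 h2) h1
  have hAc : ∀ a ∈ A, ∀ b ∈ A, a * b = b * a := fun a ha b hb => SigF.elem_comm hAe ha hb
  have hBA : B ≤ A := le_sup_left
  have hyA : y ∈ A := mem_sup_right (mem_zpowers y)
  set θ := fct x y B with hθ
  -- classification of the elements of `A`
  have hcl : ∀ a ∈ A, a ≠ 1 → a = y ∨ ∃ b ∈ B, b ≠ 1 ∧ ∃ e : G, (e = 1 ∨ e = y) ∧ a = b * e ∧ θ a = thE b e y := by
    intro a ha ha1
    rcases (mem_sup_zpowers c.fy.sq hBy).1 ha with h1 | ⟨b, hb, rfl⟩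
    · exact Or.inr ⟨a, h1, ha1, 1, Or.inl rfl, by rw [mul_one], fct_mem h.pt c h1 ha1⟩
    · by_cases hb1 : b = 1
      · left; rw [hb1, one_mul]
      · exact Or.inr ⟨b, hb, hb1, y, Or.inr rfl, rfl, fct_mul h.pt c hb hb1⟩
  have hBchange : ∀ b ∈ B, b ≠ 1 → ∃ b', Ctx S T b b' y y' ∧ V4 b b' = B := fun b hb hb1 => c.change h.pt hb hb1
  -- `θ y` does not depend on the choice
  have hthy : ∀ b ∈ B, b ≠ 1 → th y x = th y b := by
    intro b hb hb1
    exact th_eq_th h.symm h29 hBe c.fx.card_ge (fun a ha => c.mem_left h.pt ha) c.hy (fun a ha => (hBy a ha).symm)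
      (Four.mem_left _ _) c.fx.ne hb hb1
  have hle : ∀ a ∈ A, a ≠ 1 → θ a ≤ Oc a := by
    intro a ha ha1
    rcases hcl a ha ha1 with rfl | ⟨b, hb, hb1, e, he, rfl, hθe⟩
    · rw [hθ, fct_y]; exact th_le _ _ c.xy.symm
    · rw [hθe]
      obtain ⟨b', cb, -⟩ := hBchange b hb hb1
      exact thE_le h cb he
  have hodd : ∀ a ∈ A, a ≠ 1 → Odd (Nat.card (θ a)) := fun a ha ha1 => odd_of_le (hle a ha ha1) (Oc_odd a)
  have hsig : Cfsg.IsSignalizerFunctor 2 A θ := by
    refine ⟨fun a ha ha1 => (hle a ha ha1).trans (Oc_le a), fun a ha ha1 => not_two_dvd (hodd a ha ha1), ?_, ?_⟩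
    · intro a ha ha1 b hb g hg
      have hgN : b ∈ normalizer (θ a : Set G) := by
        rcases hcl a ha ha1 with rfl | ⟨b', hb', hb1, e, he, rfl, hθe⟩
        · rw [hθ, fct_y, ← thE_one]
          exact thE_norm c.xy.symm (Or.inl rfl) (hAc b hb _ hyA) (hAc b hb x (hBA (Four.mem_left _ _)))
        · rw [hθe]
          exact thE_norm (hBy b' hb') he (hAc b hb b' (hBA hb')) (hAc b hb y hyA)
      exact (Subgroup.mem_normalizer_iff.1 hgN g).1 hg
    · intro a ha ha1 d hd hd1
      rcases hcl a ha ha1 with rfl | ⟨b, hb, hb1, e, he, rfl, hθe⟩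
      · rcases hcl d hd hd1 with rfl | ⟨b, hb, hb1, e, he, rfl, hθe⟩
        · exact inf_le_left
        · rw [hθe]
          rw [hθ, fct_y, hthy b hb hb1]
          obtain ⟨b', cb, -⟩ := hBchange b hb hb1
          refine le_trans ?_ (le_sup_right : Oc b ⊓ Oc a ≤ thE b e a)
          have h1 := thE_inf_le h.symm h29 cb.symm (Or.inl rfl : (1 : G) = 1 ∨ (1 : G) = b)
          rw [thE_one, inf_comm (Oc a)] at h1
          refine le_trans (le_inf inf_le_left ?_) h1
          rintro g ⟨hg, hgd⟩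
          have h2 := mem_cent.1 (Oc_le _ (th_le a b (hBy b hb).symm hg))
          have h3 := mem_cent.1 hgd
          refine mem_cent.2 ?_
          rcases he with h0 | h0
          · rwa [h0, mul_one] at h3
          · have hyy : a * a = 1 := by rw [← pow_two, c.fy.sq]
            have h4 : b = b * e * a := by rw [h0, mul_assoc, hyy, mul_one]
            have h5 : Commute g (b * e * a) := (show Commute g (b * e) from h3).mul_right h2
            rw [← h4] at h5
            exact h5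
      · rcases hcl d hd hd1 with rfl | ⟨b2, hb2, hb21, e2, he2, rfl, hθe2⟩
        · rw [hθe, hθ, fct_y, hthy b hb hb1]
          obtain ⟨b', cb, -⟩ := hBchange b hb hb1
          refine (thE_inf_le h h29 cb he).trans ?_
          rw [inf_comm]
          exact le_sup_right
        · rw [hθe, hθe2]
          obtain ⟨b', cb, hVb⟩ := hBchange b hb hb1
          exact balE h h29 cb (by rw [hVb]; exact hb2) hb21 he he2
  obtain ⟨-, X, hX1, hX2, hX3⟩ := hsft A θ hAe hA8 hsig hodd
  refine ⟨X, odd_of_not_dvd hX2, ?_⟩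
  intro a ha ha1
  have hpar : ∀ d ∈ A, d ≠ 1 → θ d ≤ X := fun d hd hd1 => by rw [← hX3 d hd hd1]; exact inf_le_left
  have hay1 : a * y ≠ 1 := by
    intro h2
    rw [mul_eq_one_iff_eq_inv] at h2
    refine c.ne_of_mem h.pt ha hyV ha1 ?_
    rw [h2, inv_eq_iff_mul_eq_one, ← pow_two, c.fy.sq]
  have e1 : θ a = th a y := by rw [← thE_one]; exact fct_mem h.pt c ha ha1
  have e2 : θ y = th y a := by rw [hθ, fct_y, hthy a ha ha1]
  have e3 : θ (a * y) = thE a y y := fct_mul h.pt c ha ha1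
  have haA : a ∈ A := hBA ha
  apply le_antisymm
  · unfold WW
    refine sup_le (sup_le ?_ ?_) ?_
    · rw [← e1]; exact hpar a haA ha1
    · rw [← e2]; exact hpar y hyA c.fy.ne
    · rw [← e3]; exact hpar (a * y) (A.mul_mem haA hyA) hay1
  · have hay : Four a y := ⟨hBe.2 a ha, c.fy.sq, ha1, c.fy.ne, c.ne_of_mem h.pt ha hyV ha1, hBy a ha⟩
    have hVA : V4 a y ≤ A := by
      unfold V4
      refine sup_le ?_ ?_ <;> rw [zpowers_le]
      · exact haA
      · exact hyA
    refine le_of_four hay.elem hay.card_ge (odd_of_not_dvd hX2) ?_ ?_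
    · apply le_normalizer_of_conj
      intro g hg u hu
      exact hX1 g (hVA hg) u hu
    · intro d hd hd1
      rw [hX3 d (hVA hd) hd1]
      unfold WW
      rcases hay.mem_iff.1 hd with rfl | rfl | rfl | rfl
      · exact absurd rfl hd1
      · rw [e1]; exact le_sup_left.trans le_sup_left
      · rw [e2]; exact le_sup_right.trans le_sup_left
      · rw [e3]; exact le_sup_right

end Cfsg.Agent.GPF
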