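import Cfsg.Agent.GPF.Dih

set_option autoImplicit false
set_option linter.all false

/-!
The graph of commuting pairs of involutions.
-/

namespace Cfsg.Agent.GPF

open Subgroup
open scoped commutatorElement Pointwise

variable {G : Type*} [Group G]

/-- a commuting pair of involutions in `S` and `T` -/
structure Pr (S T : Set G) (p : G × G) : Prop where
  hx : p.1 ∈ S
  hy : p.2 ∈ T
  x2 : p.1 ^ 2 = 1
  y2 : p.2 ^ 2 = 1
  x1 : p.1 ≠ 1
  y1 : p.2 ≠ 1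
  xy : p.1 * p.2 = p.2 * p.1

/-- conjugation of pairs -/
def cp (g : G) (p : G × G) : G × G := (g * p.1 * g⁻¹, g * p.2 * g⁻¹)

theorem cp_one (p : G × G) : cp 1 p = p := by simp [cp]

theorem cp_mul (g h : G) (p : G × G) : cp (g * h) p = cp g (cp h p) := by
  simp [cp, mul_assoc]

theorem cp_inv_cp (g : G) (p : G × G) : cp g⁻¹ (cp g p) = p := by
  rw [← cp_mul, inv_mul_cancel, cp_one]

theorem cp_of_comm {g : G} {p : G × G} (h1 : g * p.1 = p.1 * g) (h2 : g * p.2 = p.2 * g) : cp g p = p := by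
  unfold cp
  rw [h1, h2]; simp

variable {S T : Set G}

theorem Pr.cp (h : PT S T) {p : G × G} (hp : Pr S T p) (g : G) : Pr S T (cp g p) where
  hx := h.conj_left g _ hp.hx
  hy := h.conj_right g _ hp.hy
  x2 := by
    have := hp.x2
    change (g * p.1 * g⁻¹) ^ 2 = 1
    rw [conj_pow, this]; simp
  y2 := by
    have := hp.y2
    change (g * p.2 * g⁻¹) ^ 2 = 1
    rw [conj_pow, this]; simp
  x1 := by
    intro h1
    exact hp.x1 (by simpa [GPF.cp] using h1)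
  y1 := by
    intro h1
    exact hp.y1 (by simpa [GPF.cp] using h1)
  xy := by
    have := hp.xy
    change g * p.1 * g⁻¹ * (g * p.2 * g⁻¹) = g * p.2 * g⁻¹ * (g * p.1 * g⁻¹)
    have e1 : g * p.1 * g⁻¹ * (g * p.2 * g⁻¹) = g * (p.1 * p.2) * g⁻¹ := by group
    have e2 : g * p.2 * g⁻¹ * (g * p.1 * g⁻¹) = g * (p.2 * p.1) * g⁻¹ := by group
    rw [e1, e2, this]

/-- the basic relation -/
def R1 (S T : Set G) (p q : G × G) : Prop :=
  Pr S T p ∧ Pr S T q ∧ ((p.2 = q.2 ∧ p.1 * q.1 = q.1 * p.1) ∨ (p.1 = q.1 ∧ p.2 * q.2 = q.2 * p.2))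

theorem R1.symm {p q : G × G} (h : R1 S T p q) : R1 S T q p :=
  ⟨h.2.1, h.1, h.2.2.imp (fun h => ⟨h.1.symm, h.2.symm⟩) (fun h => ⟨h.1.symm, h.2.symm⟩)⟩

theorem R1.cp (h : PT S T) {p q : G × G} (hr : R1 S T p q) (g : G) : R1 S T (cp g p) (cp g q) := by
  have key : ∀ a b : G, a * b = b * a → g * a * g⁻¹ * (g * b * g⁻¹) = g * b * g⁻¹ * (g * a * g⁻¹) := by
    intro a b hab
    have e1 : g * a * g⁻¹ * (g * b * g⁻¹) = g * (a * b) * g⁻¹ := by group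
    have e2 : g * b * g⁻¹ * (g * a * g⁻¹) = g * (b * a) * g⁻¹ := by group
    rw [e1, e2, hab]
  refine ⟨hr.1.cp h g, hr.2.1.cp h g, ?_⟩
  rcases hr.2.2 with ⟨h1, h2⟩ | ⟨h1, h2⟩
  · left
    exact ⟨by simp [GPF.cp, h1], key _ _ h2⟩
  · right
    exact ⟨by simp [GPF.cp, h1], key _ _ h2⟩

/-- the equivalence relation -/
def RR (S T : Set G) : G × G → G × G → Prop := Relation.ReflTransGen (R1 S T)

theorem RR.refl (p : G × G) : RR S T p p := Relation.ReflTransGen.refl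

theorem RR.trans {p q r : G × G} (h1 : RR S T p q) (h2 : RR S T q r) : RR S T p r :=
  Relation.ReflTransGen.trans h1 h2

theorem RR.symm {p q : G × G} (h : RR S T p q) : RR S T q p := by
  induction h with
  | refl => exact RR.refl _
  | tail _ h2 ih => exact (Relation.ReflTransGen.single h2.symm).trans ih

theorem RR.single {p q : G × G} (h : R1 S T p q) : RR S T p q := Relation.ReflTransGen.single h

theorem RR.cp (h : PT S T) {p q : G × G} (hr : RR S T p q) (g : G) : RR S T (cp g p) (cp g q) := by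
  induction hr with
  | refl => exact RR.refl _
  | tail _ h2 ih => exact ih.trans (RR.single (h2.cp h g))

theorem RR.pr {p q : G × G} (hr : RR S T p q) (hp : Pr S T p) : Pr S T q := by
  induction hr with
  | refl => exact hp
  | tail _ h2 ih => exact h2.2.1

/-- the stabilizer of the class of `p` -/
def MM (h : PT S T) (p : G × G) : Subgroup G where
  carrier := {g | RR S T p (cp g p)}
  one_mem' := by
    change RR S T p (cp 1 p)
    rw [cp_one]; exact RR.refl p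
  mul_mem' := by
    intro a b ha hb
    change RR S T p (cp (a * b) p)
    rw [cp_mul]
    exact RR.trans ha (RR.cp h hb a)
  inv_mem' := by
    intro a ha
    change RR S T p (cp a⁻¹ p)
    have := RR.cp h ha a⁻¹
    rw [cp_inv_cp] at this
    exact this.symm

theorem mem_MM (h : PT S T) {p : G × G} {g : G} : g ∈ MM h p ↔ RR S T p (cp g p) := Iff.rfl

theorem mem_MM_of_RR (h : PT S T) {p q : G × G} {g : G} (hr : RR S T p q) (hg : g ∈ MM h p) : g ∈ MM h q :=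
  (hr.symm.trans hg).trans (hr.cp h g)

theorem MM_eq (h : PT S T) {p q : G × G} (hr : RR S T p q) : MM h p = MM h q :=
  le_antisymm (fun _ hg => mem_MM_of_RR h hr hg) (fun _ hg => mem_MM_of_RR h hr.symm hg)

theorem mem_MM_cp (h : PT S T) {p : G × G} {a g : G} : a ∈ MM h (cp g p) ↔ g⁻¹ * a * g ∈ MM h p := by
  rw [mem_MM, mem_MM]
  constructor
  · intro h1
    have := RR.cp h h1 g⁻¹
    rwa [cp_inv_cp, ← cp_mul, ← cp_mul] at this
  · intro h1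
    have := RR.cp h h1 g
    rwa [← cp_mul, ← mul_assoc, ← mul_assoc, mul_inv_cancel, one_mul, cp_mul] at this

theorem mem_MM_of_comm (h : PT S T) {p q : G × G} (hr : RR S T p q) {g : G} (h1 : g * q.1 = q.1 * g)
    (h2 : g * q.2 = q.2 * g) : g ∈ MM h p := by
  rw [MM_eq h hr, mem_MM, cp_of_comm h1 h2]
  exact RR.refl q

/-- The elements of `S` in a 2-subgroup. -/
def SP (h : PT S T) (P : Subgroup G) (hP : IsPGroup 2 P) : Subgroup G where
  carrier := {g | g ∈ P ∧ g ∈ S}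
  one_mem' := ⟨P.one_mem, h.one_left⟩
  mul_mem' := fun {a b} ha hb => ⟨P.mul_mem ha.1 hb.1, h.mul_left P hP a ha.2 b hb.2 ha.1 hb.1⟩
  inv_mem' := fun {a} ha => ⟨P.inv_mem ha.1, h.inv_left ha.2⟩

theorem mem_SP (h : PT S T) {P : Subgroup G} {hP : IsPGroup 2 P} {g : G} : g ∈ SP h P hP ↔ g ∈ P ∧ g ∈ S := Iff.rfl

variable [Finite G]

theorem exists_central_S (h : PT S T) {P : Subgroup G} (hP : IsPGroup 2 P) {x : G} (hx : x ∈ S) (hxP : x ∈ P)
    (hx1 : x ≠ 1) : ∃ z ∈ P, z ∈ S ∧ z ^ 2 = 1 ∧ z ≠ 1 ∧ ∀ g ∈ P, g ∈ S → g * z = z * g := by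
  obtain ⟨z, hz, h1, h2, h3⟩ := exists_central_invol (Q := SP h P hP) (hP.to_le fun g hg => hg.1) ⟨x, ⟨hxP, hx⟩, hx1⟩
  exact ⟨z, hz.1, hz.2, h1, h2, fun g hg hg' => h3 g ⟨hg, hg'⟩⟩

/-- Pairs in a common 2-subgroup are equivalent. -/
theorem RR_of_mem (h : PT S T) {P : Subgroup G} (hP : IsPGroup 2 P) {p q : G × G} (hp : Pr S T p) (hq : Pr S T q)
    (hp1 : p.1 ∈ P) (hp2 : p.2 ∈ P) (hq1 : q.1 ∈ P) (hq2 : q.2 ∈ P) : RR S T p q := by
  obtain ⟨z, hz, hzS, hz2, hz1, hzc⟩ := exists_central_S h hP hp.hx hp1 hp.x1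
  obtain ⟨w, hw, hwT, hw2, hw1, hwc⟩ := exists_central_S h.symm hP hp.hy hp2 hp.y1
  have e1 : Pr S T (z, p.2) := ⟨hzS, hp.hy, hz2, hp.y2, hz1, hp.y1, h.comm P hP z hzS p.2 hp.hy hz hp2⟩
  have e2 : Pr S T (z, w) := ⟨hzS, hwT, hz2, hw2, hz1, hw1, h.comm P hP z hzS w hwT hz hw⟩
  have e3 : Pr S T (z, q.2) := ⟨hzS, hq.hy, hz2, hq.y2, hz1, hq.y1, h.comm P hP z hzS q.2 hq.hy hz hq2⟩
  have r1 : R1 S T p (z, p.2) := ⟨hp, e1, Or.inl ⟨rfl, hzc p.1 hp1 hp.hx⟩⟩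
  have r2 : R1 S T (z, p.2) (z, w) := ⟨e1, e2, Or.inr ⟨rfl, hwc p.2 hp2 hp.hy⟩⟩
  have r3 : R1 S T (z, w) (z, q.2) := ⟨e2, e3, Or.inr ⟨rfl, (hwc q.2 hq2 hq.hy).symm⟩⟩
  have r4 : R1 S T (z, q.2) q := ⟨e3, hq, Or.inl ⟨rfl, (hzc q.1 hq1 hq.hx).symm⟩⟩
  exact (((RR.single r1).trans (RR.single r2)).trans (RR.single r3)).trans (RR.single r4)

theorem le_MM (h : PT S T) {P : Subgroup G} (hP : IsPGroup 2 P) {p : G × G} (hp : Pr S T p)
    (hp1 : p.1 ∈ P) (hp2 : p.2 ∈ P) : P ≤ MM h p := by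
  intro g hg
  exact RR_of_mem h hP hp (hp.cp h g) hp1 hp2 (P.mul_mem (P.mul_mem hg hp1) (P.inv_mem hg))
    (P.mul_mem (P.mul_mem hg hp2) (P.inv_mem hg))

theorem Pr.exists_pgroup {p : G × G} (hp : Pr S T p) : ∃ P : Subgroup G, IsPGroup 2 P ∧ p.1 ∈ P ∧ p.2 ∈ P :=
  exists_pgroup_of_commute (two_of_sq hp.x2) (two_of_sq hp.y2) hp.xy

/-- a Sylow 2-subgroup in the stabilizer -/
theorem exists_syl (h : PT S T) {p : G × G} (hp : Pr S T p) :
    ∃ P : Subgroup G, SigF.IsSyl 2 P ⊤ ∧ p.1 ∈ P ∧ p.2 ∈ P ∧ P ≤ MM h p := by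
  obtain ⟨Q, hQ, h1, h2⟩ := hp.exists_pgroup
  obtain ⟨P, hP, hQP⟩ := SigF.exists_isSyl_ge hQ (le_top : Q ≤ ⊤)
  exact ⟨P, hP, hQP h1, hQP h2, le_MM h hP.isPGroup hp (hQP h1) (hQP h2)⟩

theorem exists_conj_into (h : PT S T) {p : G × G} (hp : Pr S T p) {P : Subgroup G} (hP : SigF.IsSyl 2 P ⊤)
    (hPM : P ≤ MM h p) {D : Subgroup G} (hD : IsPGroup 2 D) (hDM : D ≤ MM h p) :
    ∃ m ∈ MM h p, ∀ d ∈ D, m * d * m⁻¹ ∈ P := by
  haveI : Fact (Nat.Prime 2) := ⟨Nat.prime_two⟩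
  have h1 := hP.of_le hPM le_top
  obtain ⟨Q, hQ, hDQ⟩ := SigF.exists_isSyl_ge hD hDM
  obtain ⟨m, hm, hmQ⟩ := hQ.exists_cj h1
  refine ⟨m, hm, fun d hd => ?_⟩
  rw [← hmQ]
  exact SigF.conj_mem_cj (hDQ hd)

theorem RR_of_conj (h : PT S T) {p q : G × G} {m : G} (hm : m ∈ MM h p) (hr : RR S T p (cp m q)) : RR S T p q := by
  have h1 := RR.cp h hr m⁻¹
  rw [cp_inv_cp] at h1
  exact RR.trans ((MM h p).inv_mem hm) h1

/-- commuting pairs inside the stabilizer -/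
theorem RR_of_mem_MM (h : PT S T) {p q : G × G} (hp : Pr S T p) (hq : Pr S T q) (h1 : q.1 ∈ MM h p)
    (h2 : q.2 ∈ MM h p) : RR S T p q := by
  obtain ⟨P, hP, hp1, hp2, hPM⟩ := exists_syl h hp
  obtain ⟨D, hD, hq1, hq2⟩ := hq.exists_pgroup
  have hD' : IsPGroup 2 ↥(D ⊓ MM h p) := hD.to_le inf_le_left
  obtain ⟨m, hm, hmD⟩ := exists_conj_into h hp hP hPM hD' inf_le_right
  exact RR_of_conj h hm (RR_of_mem h hP.isPGroup hp (hq.cp h m) hp1 hp2 (hmD _ ⟨hq1, h1⟩) (hmD _ ⟨hq2, h2⟩))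

/-- involutions in the stabilizer are in a pair of the class -/
theorem exists_RR_of_mem (h : PT S T) {p : G × G} (hp : Pr S T p) {x : G} (hx : x ∈ S) (hx2 : x ^ 2 = 1)
    (hx1 : x ≠ 1) (hxM : x ∈ MM h p) : ∃ y : G, RR S T p (x, y) := by
  obtain ⟨P, hP, hp1, hp2, hPM⟩ := exists_syl h hp
  obtain ⟨m, hm, hmD⟩ := exists_conj_into h hp hP hPM (isPGroup_zpowers (two_of_sq hx2)) (by rwa [zpowers_le])
  have h1 : m * x * m⁻¹ ∈ P := hmD x (mem_zpowers x)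
  have h2 : Pr S T (m * x * m⁻¹, p.2) :=
    { hx := h.conj_left m x hx
      hy := hp.hy
      x2 := by
        change (m * x * m⁻¹) ^ 2 = 1
        rw [conj_pow, hx2]; simp
      y2 := hp.y2
      x1 := by
        intro h3
        exact hx1 (by simpa using h3)
      y1 := hp.y1
      xy := h.comm P hP.isPGroup _ (h.conj_left m x hx) _ hp.hy h1 hp2 }
  refine ⟨m⁻¹ * p.2 * m, RR_of_conj h hm ?_⟩
  have h3 : cp m (x, m⁻¹ * p.2 * m) = (m * x * m⁻¹, p.2) := by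
    unfold cp
    congr 1
    group
  rw [h3]
  exact RR_of_mem h hP.isPGroup hp h2 hp1 hp2 h1 hp2

/-- the group is transitive on classes -/
theorem exists_conj_RR (h : PT S T) {p q : G × G} (hp : Pr S T p) (hq : Pr S T q) :
    ∃ g : G, RR S T q (cp g p) := by
  haveI : Fact (Nat.Prime 2) := ⟨Nat.prime_two⟩
  obtain ⟨P, hP, hp1, hp2, -⟩ := exists_syl h hp
  obtain ⟨Q, hQ, hq1, hq2, -⟩ := exists_syl h hq
  obtain ⟨g, -, hg⟩ := hP.exists_cj hQ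
  refine ⟨g, RR_of_mem h hQ.isPGroup hq (hp.cp h g) hq1 hq2 ?_ ?_⟩
  · rw [← hg]; exact SigF.conj_mem_cj hp1
  · rw [← hg]; exact SigF.conj_mem_cj hp2

end Cfsg.Agent.GPF
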