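import Cfsg.Agent.GPF.Graph

set_option autoImplicit false
set_option linter.all false

/-!
The graph argument: involutions of the two sets commute.
-/

namespace Cfsg.Agent.GPF

open Subgroup
open scoped commutatorElement Pointwise

variable {G : Type*} [Group G]

/-- The standing hypotheses. -/
structure Big (S T : Set G) : Prop where
  lh : LH S T
  g29 : Gen29 G
  sft : SFT2 G
  rkS : ∀ P : Subgroup G, SigF.IsSyl 2 P ⊤ → ∀ x ∈ P, x ∈ S → x ^ 2 = 1 → x ≠ 1 → ∃ x' ∈ P, x' ∈ S ∧ Four x x'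
  rkT : ∀ P : Subgroup G, SigF.IsSyl 2 P ⊤ → ∀ x ∈ P, x ∈ T → x ^ 2 = 1 → x ≠ 1 → ∃ x' ∈ P, x' ∈ T ∧ Four x x'

theorem Big.symm {S T : Set G} (h : Big S T) : Big T S := ⟨h.lh.symm, h.g29, h.sft, h.rkT, h.rkS⟩

variable [Finite G] {S T : Set G} {x x' y y' : G}

theorem Pr.symm {p : G × G} (h : Pr S T p) : Pr T S (p.2, p.1) := ⟨h.hy, h.hx, h.y2, h.x2, h.y1, h.x1, h.xy.symm⟩

theorem Big.exists_ctx (h : Big S T) (hp : Pr S T (x, y)) : ∃ x' y', Ctx S T x x' y y' := by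
  obtain ⟨Q, hQ, h1, h2⟩ := hp.exists_pgroup
  obtain ⟨P, hP, hQP⟩ := SigF.exists_isSyl_ge hQ (le_top : Q ≤ ⊤)
  obtain ⟨x', hx'P, hx'S, hf⟩ := h.rkS P hP x (hQP h1) hp.hx hp.x2 hp.x1
  obtain ⟨y', hy'P, hy'T, hf'⟩ := h.rkT P hP y (hQP h2) hp.hy hp.y2 hp.y1
  have hc := fun a ha b hb h1 h2 => h.lh.pt.comm P hP.isPGroup a ha b hb h1 h2
  exact ⟨x', y', hf, hf', hp.hx, hx'S, hp.hy, hy'T, hp.xy, hc x hp.hx y' hy'T (hQP h1) hy'P,
    hc x' hx'S y hp.hy hx'P (hQP h2), hc x' hx'S y' hy'T hx'P hy'P⟩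

theorem Big.exists_ctx' (h : Big S T) (hx : x ∈ S) (hx' : x' ∈ S) (hf : Four x x') (hy : y ∈ T) (hy2 : y ^ 2 = 1)
    (hy1 : y ≠ 1) (hxy : x * y = y * x) (hxy' : x' * y = y * x') : ∃ y', Ctx S T x x' y y' := by
  have hc' : ∀ b ∈ V4 x x', b * y = y * b := by
    intro b hb
    rcases hf.mem_iff.1 hb with rfl | rfl | rfl | rfl
    · simp
    · exact hxy
    · exact hxy'
    · rw [mul_assoc, hxy', ← mul_assoc, hxy, mul_assoc]
  have hQ : IsPGroup 2 ↥(V4 x x' ⊔ zpowers y) :=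
    SigF.isPGroup_of_elem (elem_sup_zpowers hf.elem hy2 hc')
  obtain ⟨P, hP, hQP⟩ := SigF.exists_isSyl_ge hQ (le_top : _ ≤ ⊤)
  have h1 : x ∈ P := hQP (mem_sup_left (Four.mem_left _ _))
  have h1' : x' ∈ P := hQP (mem_sup_left (Four.mem_right _ _))
  have h2 : y ∈ P := hQP (mem_sup_right (mem_zpowers _))
  obtain ⟨y', hy'P, hy'T, hf'⟩ := h.rkT P hP y h2 hy hy2 hy1
  have hc := fun a ha b hb h1 h2 => h.lh.pt.comm P hP.isPGroup a ha b hb h1 h2
  exact ⟨y', hf, hf', hx, hx', hy, hy'T, hxy, hc x hx y' hy'T h1 hy'P, hxy', hc x' hx' y' hy'T h1' hy'P⟩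

theorem le_of_ctx (c : Ctx S T x x' y y') {K L : Subgroup G} (hK : Odd (Nat.card K))
    (hxK : V4 x x' ≤ normalizer (K : Set G)) (hyK : V4 y y' ≤ normalizer (K : Set G))
    (h : ∀ a ∈ V4 x x', a ≠ 1 → ∀ b ∈ V4 y y', b ≠ 1 → centralizer {a} ⊓ centralizer {b} ≤ L) : K ≤ L := by
  refine le_of_four c.fx.elem c.fx.card_ge hK hxK ?_
  intro a ha ha1
  refine le_of_four c.fy.elem c.fy.card_ge (odd_of_le inf_le_left hK) ?_ ?_
  · intro b hb
    have h1 := hyK hb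
    have h2 : b ∈ normalizer (centralizer ({a} : Set G) : Set G) :=
      Subgroup.le_normalizer (mem_cent.2 (c.comm ha hb).symm)
    rw [SigF.mem_normalizer_iff_cj] at h1 h2 ⊢
    rw [SigF.cj_inf, h1, h2]
  · intro b hb hb1
    exact (inf_le_inf_right _ inf_le_right).trans (h a ha ha1 b hb hb1)

theorem Ctx.pr (h : PT S T) (c : Ctx S T x x' y y') {a b : G} (ha : a ∈ V4 x x') (ha1 : a ≠ 1)
    (hb : b ∈ V4 y y') (hb1 : b ≠ 1) : Pr S T (a, b) :=
  ⟨c.mem_left h ha, c.symm.mem_left h.symm hb, c.fx.elem.2 a ha, c.fy.elem.2 b hb, ha1, hb1, c.comm ha hb⟩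

theorem Ctx.RR (h : PT S T) (c : Ctx S T x x' y y') {a b : G} (ha : a ∈ V4 x x') (ha1 : a ≠ 1)
    (hb : b ∈ V4 y y') (hb1 : b ≠ 1) : GPF.RR S T (x, y) (a, b) := by
  have r1 : R1 S T (x, y) (a, y) := ⟨c.pr h (Four.mem_left _ _) c.fx.ne (Four.mem_left _ _) c.fy.ne,
    c.pr h ha ha1 (Four.mem_left _ _) c.fy.ne, Or.inl ⟨rfl, SigF.elem_comm c.fx.elem (Four.mem_left _ _) ha⟩⟩
  have r2 : R1 S T (a, y) (a, b) := ⟨c.pr h ha ha1 (Four.mem_left _ _) c.fy.ne,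
    c.pr h ha ha1 hb hb1, Or.inr ⟨rfl, SigF.elem_comm c.fy.elem (Four.mem_left _ _) hb⟩⟩
  exact (RR.single r1).trans (RR.single r2)

theorem Ctx.cent_le_MM (h : PT S T) (c : Ctx S T x x' y y') : ∀ a ∈ V4 x x', a ≠ 1 → ∀ b ∈ V4 y y', b ≠ 1 →
    centralizer {a} ⊓ centralizer {b} ≤ MM h (x, y) := by
  intro a ha ha1 b hb hb1 g hg
  exact mem_MM_of_comm h (c.RR h ha ha1 hb hb1) (mem_cent.1 hg.1) (mem_cent.1 hg.2)

/-- `O(C(x))` and `O(C(xy))` are in the stabilizer -/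
theorem Ctx.Oc_le_MM (h : PT S T) (c : Ctx S T x x' y y') {t : G} (h1 : ∀ a ∈ V4 x x', a * t = t * a)
    (h2 : ∀ b ∈ V4 y y', b * t = t * b) : Oc t ≤ MM h (x, y) :=
  le_of_ctx c (Oc_odd t) (fun a ha => cent_le_normalizer_Oc t (mem_cent.2 (h1 a ha)))
    (fun b hb => cent_le_normalizer_Oc t (mem_cent.2 (h2 b hb))) (c.cent_le_MM h)

theorem Ctx.Oc_x (h : PT S T) (c : Ctx S T x x' y y') : Oc x ≤ MM h (x, y) :=
  c.Oc_le_MM h (fun a ha => SigF.elem_comm c.fx.elem ha (Four.mem_left _ _))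
    (fun b hb => (c.comm (Four.mem_left _ _) hb).symm)

theorem Ctx.Oc_xy (h : PT S T) (c : Ctx S T x x' y y') : Oc (x * y) ≤ MM h (x, y) := by
  refine c.Oc_le_MM h ?_ ?_
  · intro a ha
    have e1 := SigF.elem_comm c.fx.elem ha (Four.mem_left x x')
    have e2 := c.comm ha (Four.mem_left y y')
    rw [← mul_assoc, e1, mul_assoc, e2, mul_assoc]
  · intro b hb
    have e1 := SigF.elem_comm c.fy.elem hb (Four.mem_left y y')
    have e2 := (c.comm (Four.mem_left x x') hb).symm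
    rw [← mul_assoc, e2, mul_assoc, e1, mul_assoc]

/-- `W` only depends on the class -/
theorem Big.WW_eq_of_ctx (h : Big S T) (c : Ctx S T x x' y y') {a b : G} (ha : a ∈ V4 x x') (ha1 : a ≠ 1)
    (hb : b ∈ V4 y y') (hb1 : b ≠ 1) : WW x y = WW a b := by
  obtain ⟨X, -, hX⟩ := exists_W h.lh h.g29 h.sft c
  obtain ⟨a', ca, -⟩ := c.change h.lh.pt ha ha1
  obtain ⟨X', -, hX'⟩ := exists_W h.lh.symm h.g29 h.sft ca.symm
  have e1 : WW x y = WW a y := by rw [hX x (Four.mem_left _ _) c.fx.ne, hX a ha ha1]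
  have e2 : WW y a = WW b a := by rw [hX' y (Four.mem_left _ _) c.fy.ne, hX' b hb hb1]
  rw [e1, WW_symm (c.fx.elem.2 a ha) c.fy.sq (c.comm ha (Four.mem_left _ _)), e2,
    WW_symm (c.fy.elem.2 b hb) (c.fx.elem.2 a ha) (c.comm ha hb).symm]

theorem Big.WW_odd (h : Big S T) (hp : Pr S T (x, y)) : Odd (Nat.card (WW x y)) := by
  obtain ⟨x', y', c⟩ := h.exists_ctx hp
  obtain ⟨X, hXo, hX⟩ := exists_W h.lh h.g29 h.sft c
  rw [hX x (Four.mem_left _ _) c.fx.ne]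
  exact hXo

theorem Big.WW_R1 (h : Big S T) {p q : G × G} (hr : R1 S T p q) : WW p.1 p.2 = WW q.1 q.2 := by
  obtain ⟨hp, hq, h1 | h1⟩ := hr
  · by_cases h2 : p.1 = q.1
    · rw [h2, h1.1]
    · have hf : Four p.1 q.1 := ⟨hp.x2, hq.x2, hp.x1, hq.x1, h2, h1.2⟩
      obtain ⟨y', c⟩ := h.exists_ctx' hp.hx hq.hx hf hp.hy hp.y2 hp.y1 hp.xy (by rw [h1.1]; exact hq.xy)
      have := h.WW_eq_of_ctx c (Four.mem_right _ _) hq.x1 (Four.mem_left _ _) hp.y1
      rw [this, h1.1]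
  · by_cases h2 : p.2 = q.2
    · rw [h2, h1.1]
    · have hf : Four p.2 q.2 := ⟨hp.y2, hq.y2, hp.y1, hq.y1, h2, h1.2⟩
      obtain ⟨x', c⟩ := h.symm.exists_ctx' hp.hy hq.hy hf hp.hx hp.x2 hp.x1 hp.xy.symm
        (by rw [h1.1]; exact hq.xy.symm)
      have := h.WW_eq_of_ctx c.symm (Four.mem_left _ _) hp.x1 (Four.mem_right _ _) hq.y1
      rw [this, h1.1]

theorem Big.WW_RR (h : Big S T) {p q : G × G} (hr : RR S T p q) : WW p.1 p.2 = WW q.1 q.2 := by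
  induction hr with
  | refl => rfl
  | tail _ h2 ih => exact ih.trans (h.WW_R1 h2)

/-- the swap of a relation -/
theorem R1.swap {p q : G × G} (h : R1 S T p q) : R1 T S (p.2, p.1) (q.2, q.1) :=
  ⟨h.1.symm, h.2.1.symm, h.2.2.symm⟩

theorem RR.swap {p q : G × G} (h : RR S T p q) : RR T S (p.2, p.1) (q.2, q.1) := by
  induction h with
  | refl => exact RR.refl _
  | tail _ h2 ih => exact ih.trans (RR.single h2.swap)

theorem mem_MM_swap (h : PT S T) {p : G × G} {g : G} : g ∈ MM h p ↔ g ∈ MM h.symm (p.2, p.1) :=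
  ⟨fun h1 => RR.swap h1, fun h1 => RR.swap h1⟩

/-- Claim D: commuting involutions of `S` fix the same classes -/
theorem Big.fix_comm (h : Big S T) {q : G × G} (hq : Pr S T q) (hx : x ∈ S) (hx2 : x ^ 2 = 1) (hx1 : x ≠ 1)
    (hx' : x' ∈ S) (hx2' : x' ^ 2 = 1) (hx1' : x' ≠ 1) (hxx : x * x' = x' * x) (hxM : x ∈ MM h.lh.pt q) :
    x' ∈ MM h.lh.pt q := by
  obtain ⟨y, hy⟩ := exists_RR_of_mem h.lh.pt hq hx hx2 hx1 hxM
  have hp := hy.pr hq
  obtain ⟨x1, y1, c⟩ := h.exists_ctx hp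
  have h1 : ⁅x', y⁆ ∈ Oc x := by
    refine h.lh.loc x hx1 (two_of_sq hx2) (commutator_mem_commutator (mem_NN hx' (mem_cent.2 hxx.symm))
      (mem_NN hp.hy (mem_cent.2 hp.xy.symm)))
  obtain ⟨e, he, he'⟩ := lift_commute (Oc_odd x) (cent_le_normalizer_Oc x (mem_cent.2 hxx.symm))
    (cent_le_normalizer_Oc x (mem_cent.2 hp.xy.symm)) hx2' hp.y2 hp.y1 h1
  have heM : e ∈ MM h.lh.pt (x, y) := c.Oc_x h.lh.pt he
  have h2 : cp e (x, y) = (x, e * y * e⁻¹) := by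
    unfold cp
    congr 1
    change e * x * e⁻¹ = x
    rw [Oc_comm he]; simp
  have r1 : RR S T q (x, e * y * e⁻¹) := by
    rw [← h2]; exact hy.trans heM
  have hp1 := r1.pr hq
  have hp2 : Pr S T (x', e * y * e⁻¹) := ⟨hx', hp1.hy, hx2', hp1.y2, hx1', hp1.y1, he'⟩
  have r2 : RR S T q (x', e * y * e⁻¹) := r1.trans (RR.single ⟨hp1, hp2, Or.inl ⟨rfl, hxx⟩⟩)
  exact mem_MM_of_comm h.lh.pt r2 rfl he'

theorem Big.fix_comm_T (h : Big S T) {q : G × G} (hq : Pr S T q) (hy : y ∈ T) (hy2 : y ^ 2 = 1) (hy1 : y ≠ 1)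
    (hy' : y' ∈ T) (hy2' : y' ^ 2 = 1) (hy1' : y' ≠ 1) (hyy : y * y' = y' * y) (hyM : y ∈ MM h.lh.pt q) :
    y' ∈ MM h.lh.pt q := by
  rw [mem_MM_swap] at hyM ⊢
  exact h.symm.fix_comm hq.symm hy hy2 hy1 hy' hy2' hy1' hyy hyM

/-- Claim E -/
theorem Big.fix_conj (h : Big S T) {u : G} (hx : x ∈ S) (hx2 : x ^ 2 = 1) (hu : u ∈ T) (hu2 : u ^ 2 = 1)
    {q : G × G} (hq : Pr S T q) : u ∈ MM h.lh.pt q ↔ x * u * x⁻¹ ∈ MM h.lh.pt q := by
  by_cases hx1 : x = 1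
  · rw [hx1]; simp
  by_cases hu1 : u = 1
  · rw [hu1]; simp
  obtain ⟨y, e, hyT, hy2, hy1, hxy, he, heu, -⟩ := dihedral h.lh hx hu hx2 hu2 hx1 hu1
  have hp : Pr S T (x, y) := ⟨hx, hyT, hx2, hy2, hx1, hy1, hxy⟩
  obtain ⟨x1, y1, c⟩ := h.exists_ctx hp
  set z := x * y with hz
  let St : Subgroup G :=
    { carrier := {g | ∀ q : G × G, Pr S T q → (y ∈ MM h.lh.pt q ↔ y ∈ MM h.lh.pt (cp g q))}
      one_mem' := by
        intro q hq
        rw [cp_one]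
      mul_mem' := by
        intro a b ha hb q hq
        rw [cp_mul]
        exact (hb q hq).trans (ha _ (hq.cp h.lh.pt b))
      inv_mem' := by
        intro a ha q hq
        have := ha _ (hq.cp h.lh.pt a⁻¹)
        rw [← cp_mul, mul_inv_cancel, cp_one] at this
        exact this.symm }
  have hSt : Oc z ≤ St := by
    refine le_of_four c.fy.elem c.fy.card_ge (Oc_odd z) ?_ ?_
    · intro b hb
      have e1 := SigF.elem_comm c.fy.elem hb (Four.mem_left y y1)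
      have e2 := (c.comm (Four.mem_left x x1) hb).symm
      refine cent_le_normalizer_Oc z (mem_cent.2 ?_)
      rw [hz, ← mul_assoc, e2, mul_assoc, e1, mul_assoc]
    · intro b hb hb1 g hg q hq
      have hbT := c.symm.mem_left h.lh.pt.symm hb
      have hb2 := c.fy.elem.2 b hb
      have hyb := SigF.elem_comm c.fy.elem (Four.mem_left y y1) hb
      have key : ∀ q : G × G, Pr S T q → (y ∈ MM h.lh.pt q ↔ b ∈ MM h.lh.pt q) := fun q hq =>
        ⟨fun h1 => h.fix_comm_T hq hyT hy2 hy1 hbT hb2 hb1 hyb h1,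
          fun h1 => h.fix_comm_T hq hbT hb2 hb1 hyT hy2 hy1 hyb.symm h1⟩
      have hgb : g⁻¹ * b * g = b := by
        rw [mul_assoc, ← mem_cent.1 hg.2]; group
      rw [key q hq, key _ (hq.cp h.lh.pt g), mem_MM_cp, hgb]
  have hmain : ∀ g ∈ Oc z, (y ∈ MM h.lh.pt q ↔ g * y * g⁻¹ ∈ MM h.lh.pt q) := by
    intro g hg
    have h1 := hSt ((Oc z).inv_mem hg) q hq
    rw [mem_MM_cp, inv_inv] at h1
    exact h1
  have hxz : x * z = z * x := by rw [hz, mul_assoc x y x, ← hxy]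
  have h1 := hmain e he
  have h2 := hmain (x * e * x⁻¹) (Oc_conj hxz he)
  rw [heu] at h1
  have h3 : x * e * x⁻¹ * y * (x * e * x⁻¹)⁻¹ = x * u * x⁻¹ := by
    have h4 : x⁻¹ * y * x = y := by rw [mul_assoc, ← hxy, hz]; group
    rw [← heu]
    calc x * e * x⁻¹ * y * (x * e * x⁻¹)⁻¹ = x * e * (x⁻¹ * y * x) * e⁻¹ * x⁻¹ := by group
      _ = x * (e * y * e⁻¹) * x⁻¹ := by rw [h4]; group
  rw [h3] at h2
  exact h1.symm.trans h2

/-- the subgroup generated by the involutions of `S` -/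
def JJ (S : Set G) : Subgroup G := closure {x | x ∈ S ∧ x ^ 2 = 1}

theorem mem_JJ (hx : x ∈ S) (hx2 : x ^ 2 = 1) : x ∈ JJ S := subset_closure ⟨hx, hx2⟩

theorem JJ_normal (hS : ∀ g a : G, a ∈ S → g * a * g⁻¹ ∈ S) : (JJ S).Normal := by
  rw [← normalizer_eq_top_iff, eq_top_iff]
  refine le_normalizer_closure fun g _ x hx => ⟨hS g x hx.1, ?_⟩
  rw [conj_pow, hx.2]; simp

theorem Big.fix_conj_J (h : Big S T) {g : G} (hg : g ∈ JJ S) : ∀ {u : G}, u ∈ T → u ^ 2 = 1 → ∀ {q : G × G},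
    Pr S T q → (u ∈ MM h.lh.pt q ↔ g * u * g⁻¹ ∈ MM h.lh.pt q) := by
  have hsq : ∀ g u : G, u ^ 2 = 1 → (g * u * g⁻¹) ^ 2 = 1 := by
    intro g u hu
    rw [conj_pow, hu]; simp
  induction hg using closure_induction with
  | mem x hx => intro u hu hu2 q hq; exact h.fix_conj hx.1 hx.2 hu hu2 hq
  | one => intro u hu hu2 q hq; simp
  | mul a b _ _ iha ihb =>
    intro u hu hu2 q hq
    rw [ihb hu hu2 hq, iha (h.lh.pt.conj_right b u hu) (hsq b u hu2) hq]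
    have : a * (b * u * b⁻¹) * a⁻¹ = a * b * u * (a * b)⁻¹ := by group
    rw [this]
  | inv a _ iha =>
    intro u hu hu2 q hq
    rw [iha (h.lh.pt.conj_right a⁻¹ u hu) (hsq a⁻¹ u hu2) hq]
    have : a * (a⁻¹ * u * a⁻¹⁻¹) * a⁻¹ = u := by group
    rw [this]

theorem Big.fix_conj_J_T (h : Big S T) {g : G} (hg : g ∈ JJ T) {u : G} (hu : u ∈ S) (hu2 : u ^ 2 = 1) {q : G × G}
    (hq : Pr S T q) : u ∈ MM h.lh.pt q ↔ g * u * g⁻¹ ∈ MM h.lh.pt q := by
  exact (mem_MM_swap h.lh.pt).trans ((h.symm.fix_conj_J hg hu hu2 hq.symm).trans (mem_MM_swap h.lh.pt).symm)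

theorem Big.mem_MM_of_J (h : Big S T) {g : G} (hg : g ∈ JJ S) (hg' : g ∈ JJ T) {q : G × G} (hq : Pr S T q) :
    g ∈ MM h.lh.pt q := by
  have h1 : q.1 ∈ MM h.lh.pt q := mem_MM_of_comm h.lh.pt (RR.refl q) rfl hq.xy
  have h2 : q.2 ∈ MM h.lh.pt q := mem_MM_of_comm h.lh.pt (RR.refl q) hq.xy.symm rfl
  rw [h.fix_conj_J_T hg' hq.hx hq.x2 hq] at h1
  rw [h.fix_conj_J hg hq.hy hq.y2 hq] at h2
  exact RR_of_mem_MM h.lh.pt hq (hq.cp h.lh.pt g) h1 h2

/-- The involutions commute. -/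
theorem Big.comm_invol (h : Big S T) (hO : Cfsg.oddCore G = ⊥)
    (hO2 : ∀ N : Subgroup G, N.Normal → IsPGroup 2 N → N = ⊥) (hloc : ∀ H : Subgroup G, H ≠ ⊤ → LocC S T H) :
    ∀ x ∈ S, ∀ u ∈ T, x ^ 2 = 1 → u ^ 2 = 1 → x * u = u * x := by
  by_cases hall : ∀ p q : G × G, Pr S T p → Pr S T q → RR S T p q
  · intro x hx u hu hx2 hu2
    by_cases hx1 : x = 1
    · rw [hx1]; simp
    by_cases hu1 : u = 1
    · rw [hu1]; simp
    obtain ⟨y, e, hyT, hy2, hy1, hxy, he, heu, -⟩ := dihedral h.lh hx hu hx2 hu2 hx1 hu1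
    have hp : Pr S T (x, y) := ⟨hx, hyT, hx2, hy2, hx1, hy1, hxy⟩
    have hN : (WW x y).Normal := by
      rw [← normalizer_eq_top_iff, eq_top_iff]
      intro g _
      rw [SigF.mem_normalizer_iff_cj, cj_WW]
      exact (h.WW_RR (hall (x, y) (cp g (x, y)) hp (hp.cp h.lh.pt g))).symm
    have h1 : WW x y ≤ Cfsg.oddCore G :=
      Cfsg.Agent.Solv.le_pPrimeCore hN (by rw [Nat.coprime_two_right]; exact h.WW_odd hp)
    rw [hO] at h1
    have h2 : ⁅e, y⁆ ∈ WW x y := by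
      unfold WW thE
      exact mem_sup_right (mem_sup_left (commutator_mem_commutator he (mem_zpowers y)))
    have h3 := Subgroup.mem_bot.1 (h1 h2)
    rw [commutatorElement_eq_one_iff_mul_comm] at h3
    have h4 : u = y := by
      rw [← heu, h3]; group
    rw [h4]; exact hxy
  · push Not at hall
    obtain ⟨p0, q0, hp0, hq0, hn0⟩ := hall
    have hMM : ∀ p : G × G, Pr S T p → MM h.lh.pt p ≠ ⊤ := by
      intro p hp htop
      have key : ∀ q : G × G, Pr S T q → RR S T p q := by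
        intro q hq
        obtain ⟨g, hg⟩ := exists_conj_RR h.lh.pt hp hq
        have h1 : g ∈ MM h.lh.pt p := by rw [htop]; exact mem_top g
        exact RR.trans h1 hg.symm
      exact hn0 ((key p0 hp0).symm.trans (key q0 hq0))
    have hJS := JJ_normal h.lh.pt.conj_left
    have hJT := JJ_normal h.lh.pt.conj_right
    set L := ⁅JJ S, JJ T⁆ with hL
    have hLn : L.Normal := commutator_normal _ _
    have hLS : L ≤ JJ S := commutator_le_left _ _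
    have hLT : L ≤ JJ T := commutator_le_right _ _
    have hLMM : ∀ q : G × G, Pr S T q → L ≤ MM h.lh.pt q := fun q hq g hg => h.mem_MM_of_J (hLS hg) (hLT hg) hq
    have hcen : ∀ N : Subgroup G, N.Normal → (∀ a ∈ N, ∀ b ∈ N, a * b = b * a) → N = ⊥ := by
      intro N hN hab
      apply hO2 N hN
      rintro ⟨c, hc⟩
      obtain ⟨k, m, hm, hkm⟩ := Nat.exists_eq_two_pow_mul_odd (orderOf_pos c).ne'
      refine ⟨k, Subtype.ext ?_⟩
      push_cast
      refine eq_one_of_odd_of_abelian hO _ hN hab (N.pow_mem hc _) ?_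
      have h1 : orderOf (c ^ 2 ^ k) ∣ m := by
        apply orderOf_dvd_of_pow_eq_one
        rw [← pow_mul, ← hkm, pow_orderOf_eq_one]
      exact Odd.of_dvd_nat hm h1
    have hLodd : ∀ M : Subgroup G, L ≤ M → OO M ⊓ L = ⊥ := by
      intro M hLM
      have h1 : OO M ⊓ L ≤ OO L := by
        apply le_OO inf_le_right (odd_of_le inf_le_left (OO_odd M))
        intro l hl
        have h2 : l ∈ normalizer (OO M : Set G) := le_normalizer_OO_self M (hLM hl)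
        have h3 : l ∈ normalizer (L : Set G) := Subgroup.le_normalizer hl
        rw [SigF.mem_normalizer_iff_cj] at h2 h3 ⊢
        rw [SigF.cj_inf, h2, h3]
      have h2 : OO L ≤ OO ⊤ := OO_le_OO_of_normal le_top (by rw [normalizer_eq_top_iff.2 hLn])
      rw [OO_top, hO] at h2
      exact le_bot_iff.1 (h1.trans h2)
    -- `[[L, x], u] = 1`
    have hkey : ∀ x ∈ S, x ^ 2 = 1 → ∀ l ∈ L, ∀ u ∈ T, u ^ 2 = 1 → ⁅l, x⁆ * u = u * ⁅l, x⁆ := by
      intro x hx hx2 l hl u hu hu2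
      by_cases hx1 : x = 1
      · rw [hx1]; simp
      by_cases hu1 : u = 1
      · rw [hu1]; simp
      obtain ⟨y, e, hyT, hy2, hy1, hxy, he, heu, -⟩ := dihedral h.lh hx hu hx2 hu2 hx1 hu1
      have hp : Pr S T (x, y) := ⟨hx, hyT, hx2, hy2, hx1, hy1, hxy⟩
      obtain ⟨x1, y1, c⟩ := h.exists_ctx hp
      set M := MM h.lh.pt (x, y) with hM
      have hxM : x ∈ M := mem_MM_of_comm h.lh.pt (RR.refl (x, y)) rfl hxy
      have hyM : y ∈ M := mem_MM_of_comm h.lh.pt (RR.refl (x, y)) hxy.symm rfl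
      have heM : e ∈ M := c.Oc_xy h.lh.pt he
      have huM : u ∈ M := by rw [← heu]; exact M.mul_mem (M.mul_mem heM hyM) (M.inv_mem heM)
      have hlM : l ∈ M := hLMM _ hp hl
      have h1 : ⁅l, x⁆ ∈ NN S M := by
        rw [commutatorElement_def]
        exact mul_mem (mem_NN (h.lh.pt.conj_left l x hx) (M.mul_mem (M.mul_mem hlM hxM) (M.inv_mem hlM)))
          (inv_mem (mem_NN hx hxM))
      have h2 : ⁅⁅l, x⁆, u⁆ ∈ OO M := hloc M (hMM _ hp) (commutator_mem_commutator h1 (mem_NN hu huM))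
      have h3 : ⁅l, x⁆ ∈ L := by
        have : ⁅l, x⁆ = l * (x * l⁻¹ * x⁻¹) := by rw [commutatorElement_def]; group
        rw [this]
        exact L.mul_mem hl (hLn.conj_mem _ (L.inv_mem hl) x)
      have h4 : ⁅⁅l, x⁆, u⁆ ∈ L := by
        have : ⁅⁅l, x⁆, u⁆ = ⁅l, x⁆ * (u * ⁅l, x⁆⁻¹ * u⁻¹) := by
          rw [commutatorElement_def ⁅l, x⁆ u]; group
        rw [this]
        exact L.mul_mem h3 (hLn.conj_mem _ (L.inv_mem h3) u)
      have h5 : ⁅⁅l, x⁆, u⁆ ∈ OO M ⊓ L := ⟨h2, h4⟩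
      rw [hLodd M (hLMM _ hp)] at h5
      exact commutatorElement_eq_one_iff_mul_comm.1 (Subgroup.mem_bot.1 h5)
    -- the centre of `JJ T`
    have hcenJ : ∀ X : Set G, (∀ g a : G, a ∈ X → g * a * g⁻¹ ∈ X) → JJ X ⊓ centralizer (JJ X : Set G) = ⊥ := by
      intro X hX
      have hn := JJ_normal (S := X) hX
      refine hcen _ inferInstance ?_
      intro a ha b hb
      exact (mem_centralizer_iff.1 hb.2 a ha.1)
    have hcommJ : ∀ (X : Set G) (w : G), (∀ u ∈ X, u ^ 2 = 1 → w * u = u * w) → w ∈ centralizer (JJ X : Set G) := by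
      intro X w hw
      unfold JJ
      rw [centralizer_closure, mem_centralizer_iff]
      rintro u ⟨hu, hu2⟩
      exact (hw u hu hu2).symm
    have hLx : ∀ l ∈ L, ∀ x ∈ S, x ^ 2 = 1 → l * x = x * l := by
      intro l hl x hx hx2
      have h3 : ⁅l, x⁆ ∈ L := by
        have : ⁅l, x⁆ = l * (x * l⁻¹ * x⁻¹) := by rw [commutatorElement_def]; group
        rw [this]
        exact L.mul_mem hl (hLn.conj_mem _ (L.inv_mem hl) x)
      have h4 : ⁅l, x⁆ ∈ JJ T ⊓ centralizer (JJ T : Set G) :=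
        ⟨hLT h3, hcommJ T _ fun u hu hu2 => hkey x hx hx2 l hl u hu hu2⟩
      rw [hcenJ T h.lh.pt.conj_right] at h4
      exact commutatorElement_eq_one_iff_mul_comm.1 (Subgroup.mem_bot.1 h4)
    have hL1 : L = ⊥ := by
      rw [eq_bot_iff]
      intro l hl
      have h4 : l ∈ JJ S ⊓ centralizer (JJ S : Set G) := ⟨hLS hl, hcommJ S _ fun x hx hx2 => hLx l hl x hx hx2⟩
      rw [hcenJ S h.lh.pt.conj_left] at h4
      exact h4
    intro x hx u hu hx2 hu2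
    have h1 : ⁅x, u⁆ ∈ L := commutator_mem_commutator (mem_JJ hx hx2) (mem_JJ hu hu2)
    rw [hL1] at h1
    exact commutatorElement_eq_one_iff_mul_comm.1 (Subgroup.mem_bot.1 h1)

end Cfsg.Agent.GPF
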