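import Cfsg.Agent.GPF.PT

set_option autoImplicit false
set_option linter.all false

/-!
Local lemmas in a subgroup for which the conclusion is known.
-/

namespace Cfsg.Agent.GPF

open Subgroup
open scoped commutatorElement Pointwise

variable {G : Type*} [Group G]

/-- the subgroup generated by the elements of `S` in `H` -/
def NN (S : Set G) (H : Subgroup G) : Subgroup G := closure (S ∩ H)

theorem NN_le (S : Set G) (H : Subgroup G) : NN S H ≤ H := (closure_le H).2 Set.inter_subset_right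

theorem mem_NN {S : Set G} {H : Subgroup G} {a : G} (ha : a ∈ S) (haH : a ∈ H) : a ∈ NN S H :=
  subset_closure ⟨ha, haH⟩

theorem le_normalizer_closure {X : Set G} {H : Subgroup G} (h : ∀ g ∈ H, ∀ x ∈ X, g * x * g⁻¹ ∈ X) :
    H ≤ normalizer (closure X : Set G) := by
  apply le_normalizer_of_conj
  intro g hg x hx
  have h1 : SigF.cj g (closure X) ≤ closure X := by
    rw [SigF.cj_def, MonoidHom.map_closure, closure_le]
    rintro _ ⟨y, hy, rfl⟩
    exact subset_closure (h g hg y hy)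
  exact h1 (SigF.conj_mem_cj hx)

theorem le_normalizer_NN {S : Set G} (hS : ∀ g a : G, a ∈ S → g * a * g⁻¹ ∈ S) (H : Subgroup G) :
    H ≤ normalizer (NN S H : Set G) :=
  le_normalizer_closure fun g hg x hx => ⟨hS g x hx.1, H.mul_mem (H.mul_mem hg hx.2) (H.inv_mem hg)⟩

/-- the conclusion for the subgroup `H` -/
def LocC (S T : Set G) (H : Subgroup G) : Prop := ⁅NN S H, NN T H⁆ ≤ OO H

theorem LocC.symm {S T : Set G} {H : Subgroup G} (h : LocC S T H) : LocC T S H := by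
  unfold LocC at *
  rwa [commutator_comm]

theorem mem_sup_norm {H K : Subgroup G} (hn : H ≤ normalizer (K : Set G)) {x : G} (hx : x ∈ H ⊔ K) :
    ∃ h ∈ H, ∃ k ∈ K, h * k = x := by
  have h1 : x ∈ ((H ⊔ K : Subgroup G) : Set G) := hx
  rw [coe_mul_of_left_le_normalizer_right H K hn] at h1
  obtain ⟨h, hh, k, hk, e⟩ := h1
  exact ⟨h, hh, k, hk, e⟩

/-- elements of `H` which centralize `B` modulo `M` -/
def cmod (H B M : Subgroup G) (hM : H ≤ normalizer (M : Set G)) : Subgroup G where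
  carrier := {h | h ∈ H ∧ ∀ n ∈ B, ⁅h, n⁆ ∈ M}
  one_mem' := ⟨H.one_mem, fun n _ => by rw [commutatorElement_one_left]; exact M.one_mem⟩
  mul_mem' := by
    rintro a b ⟨ha, ha'⟩ ⟨hb, hb'⟩
    refine ⟨H.mul_mem ha hb, fun n hn => ?_⟩
    have e : ⁅a * b, n⁆ = a * ⁅b, n⁆ * a⁻¹ * ⁅a, n⁆ := by
      simp only [commutatorElement_def]; group
    rw [e]
    exact M.mul_mem (conj_of_le hM ha (hb' n hn)) (ha' n hn)
  inv_mem' := by
    rintro a ⟨ha, ha'⟩
    refine ⟨H.inv_mem ha, fun n hn => ?_⟩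
    have e : ⁅a⁻¹, n⁆ = a⁻¹ * ⁅a, n⁆⁻¹ * a := by
      simp only [commutatorElement_def]; group
    rw [e]
    exact conj_inv_of_le hM ha (M.inv_mem (ha' n hn))

theorem mem_cmod {H B M : Subgroup G} {hM : H ≤ normalizer (M : Set G)} {h : G} :
    h ∈ cmod H B M hM ↔ h ∈ H ∧ ∀ n ∈ B, ⁅h, n⁆ ∈ M := Iff.rfl

section Fin

variable [Finite G] {S T : Set G} {H : Subgroup G}

theorem comm_mem_OO {a b : G} (ha : a ∈ H) (hb : b ∈ OO H) : ⁅a, b⁆ ∈ OO H := by
  rw [commutatorElement_def]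
  exact mul_mem (conj_of_le (le_normalizer_OO_self H) ha hb) (inv_mem hb)

theorem comm_mem_OO' {a b : G} (ha : a ∈ H) (hb : b ∈ OO H) : ⁅b, a⁆ ∈ OO H := by
  rw [← commutatorElement_inv]
  exact inv_mem (comm_mem_OO ha hb)

theorem q1 (h : PT S T) (hH : LocC S T H) {x : G} (hx : x ∈ S) (hxH : x ∈ H) {y n : G}
    (hy : y ∈ OO (H ⊓ centralizer {x})) (hn : n ∈ NN T H) : ⁅y, n⁆ ∈ OO H := by
  rw [← centralizer_zpowers_eq] at hy
  have hHO := le_normalizer_OO_self H
  set N := NN T H ⊔ OO H with hN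
  have hNH : N ≤ H := sup_le (NN_le T H) (OO_le H)
  have hHN : H ≤ normalizer (N : Set G) := by
    intro g hg
    have h3 := le_normalizer_NN h.conj_right H hg
    have h4 := hHO hg
    rw [SigF.mem_normalizer_iff_cj] at h3 h4 ⊢
    rw [hN, SigF.cj_def, Subgroup.map_sup, ← SigF.cj_def, ← SigF.cj_def, h3, h4]
  have hxN : zpowers x ≤ NN S H := by
    rw [zpowers_le]; exact mem_NN hx hxH
  have hcom : ∀ a ∈ zpowers x, ∀ m ∈ N, ⁅a, m⁆ ∈ OO H := by
    intro a ha m hm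
    obtain ⟨t, ht, o, ho, rfl⟩ := mem_sup_norm ((NN_le T H).trans hHO) hm
    have haH : a ∈ H := NN_le S H (hxN ha)
    have e : ⁅a, t * o⁆ = ⁅a, t⁆ * (t * ⁅a, o⁆ * t⁻¹) := by
      simp only [commutatorElement_def]; group
    rw [e]
    exact mul_mem (hH (commutator_mem_commutator (hxN ha) ht))
      (conj_of_le hHO (NN_le T H ht) (comm_mem_OO haH ho))
  have hx2 := isPGroup_zpowers (h.two_left x hx)
  have hxH' : zpowers x ≤ H := hxN.trans (NN_le S H)
  have key := OO_inf_centralizer_le hNH hHN le_sup_right hxH' hx2 hcom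
  have hnN : n ∈ N := mem_sup_left hn
  obtain ⟨c, hc1, hc2⟩ := exists_fix_mod hx2 (OO_odd H) (hxH'.trans hHO) (fun a ha => hcom a ha n hnN)
    (hHO (hNH hnN))
  have hcn : c = n * (n⁻¹ * c) := by group
  have hcN : c ∈ N := by rw [hcn]; exact N.mul_mem hnN (mem_sup_right hc1)
  have hcC : c ∈ H ⊓ centralizer (zpowers x : Set G) :=
    ⟨hNH hcN, mem_centralizer_iff.2 fun a ha => hc2 a ha⟩
  have hyC := OO_le _ hy
  have e1 : n = c * (c⁻¹ * n) := by group
  have e2 : c⁻¹ * n = (n⁻¹ * c)⁻¹ := by group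
  have ho : c⁻¹ * n ∈ OO H := by rw [e2]; exact inv_mem hc1
  have e : ⁅y, c * (c⁻¹ * n)⁆ = ⁅y, c⁆ * (c * ⁅y, c⁻¹ * n⁆ * c⁻¹) := by
    simp only [commutatorElement_def]; group
  rw [e1, e]
  have hycN : ⁅y, c⁆ ∈ N := by
    rw [commutatorElement_def]
    exact N.mul_mem (conj_of_le hHN hyC.1 hcN) (N.inv_mem hcN)
  exact (OO H).mul_mem (key ⟨comm_mem_OO' hcC hy, hycN⟩) (conj_of_le hHO hcC.1 (comm_mem_OO hyC.1 ho))

theorem q2 (h : PT S T) (hH : LocC S T H) {x : G} (hx : x ∈ S) (hxH : x ∈ H) {y : G}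
    (hy : y ∈ OO (H ⊓ centralizer {x})) (hn : ∀ n ∈ NN S H, ⁅y, n⁆ ∈ OO H) : y ∈ OO H := by
  rw [← centralizer_zpowers_eq] at hy
  have hHO := le_normalizer_OO_self H
  set N := cmod H (NN S H) (OO H) hHO with hN
  have hxN : zpowers x ≤ NN S H := by
    rw [zpowers_le]; exact mem_NN hx hxH
  have hx2 := isPGroup_zpowers (h.two_left x hx)
  have hxH' : zpowers x ≤ H := hxN.trans (NN_le S H)
  have hHN : H ≤ normalizer (N : Set G) := by
    apply le_normalizer_of_conj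
    intro g hg a ha
    refine ⟨H.mul_mem (H.mul_mem hg ha.1) (H.inv_mem hg), fun n hn => ?_⟩
    have e : ⁅g * a * g⁻¹, n⁆ = g * ⁅a, g⁻¹ * n * g⁆ * g⁻¹ := by
      simp only [commutatorElement_def]; group
    rw [e]
    exact conj_of_le hHO hg (ha.2 _ (conj_inv_of_le (le_normalizer_NN h.conj_left H) hg hn))
  have key := OO_inf_centralizer_le (N := N) (fun a ha => ha.1) hHN
    (fun m hm => ⟨OO_le H hm, fun n hn => comm_mem_OO' (NN_le S H hn) hm⟩) hxH' hx2
    (fun a ha n hn => by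
      rw [← commutatorElement_inv]
      exact inv_mem (hn.2 a (hxN ha)))
  exact key ⟨hy, (OO_le _ hy).1, hn⟩

/-- odd order elements of an abelian normal subgroup -/
theorem eq_one_of_odd_of_abelian (hO : Cfsg.oddCore G = ⊥) (N : Subgroup G) (hN : N.Normal)
    (hab : ∀ a ∈ N, ∀ b ∈ N, a * b = b * a) {e : G} (he : e ∈ N) (hodd : Odd (orderOf e)) : e = 1 := by
  let D : Subgroup G :=
    { carrier := {n | n ∈ N ∧ Odd (orderOf n)}
      one_mem' := ⟨N.one_mem, by simp⟩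
      mul_mem' := by
        rintro a b ⟨ha, ha'⟩ ⟨hb, hb'⟩
        exact ⟨N.mul_mem ha hb, Odd.of_dvd_nat (ha'.mul hb') (Commute.orderOf_mul_dvd_mul_orderOf (hab a ha b hb))⟩
      inv_mem' := by
        rintro a ⟨ha, ha'⟩
        exact ⟨N.inv_mem ha, by rwa [orderOf_inv]⟩ }
  have hD : D.Normal := ⟨by
    rintro n ⟨hn, hn'⟩ g
    refine ⟨hN.conj_mem n hn g, ?_⟩
    have : orderOf (g * n * g⁻¹) = orderOf n := by
      have := orderOf_injective (MulAut.conj g).toMonoidHom (MulAut.conj g).injective n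
      simpa using this
    rwa [this]⟩
  have hodd' : (Nat.card D).Coprime 2 := by
    rw [Nat.coprime_two_right]
    apply odd_of_not_dvd
    intro h2
    haveI : Fact (Nat.Prime 2) := ⟨Nat.prime_two⟩
    obtain ⟨x, hx⟩ := exists_prime_orderOf_dvd_card' 2 h2
    have h3 := x.2.2
    rw [Subgroup.orderOf_coe, hx] at h3
    exact absurd h3 (by decide)
  have h1 := Cfsg.Agent.Solv.le_pPrimeCore hD hodd'
  have h2 : e ∈ Cfsg.oddCore G := h1 ⟨he, hodd⟩
  rw [hO] at h2
  exact Subgroup.mem_bot.1 h2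

end Fin

end Cfsg.Agent.GPF
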