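import Cfsg.Agent.GPF.Loc

set_option autoImplicit false
set_option linter.all false

/-!
Quotients by odd normal subgroups and by 2-subgroups; more local lemmas.
-/

namespace Cfsg.Agent.GPF

open Subgroup
open scoped commutatorElement Pointwise

variable {G : Type*} [Group G] [Finite G] {S T : Set G}

/-- the elements of a 2-group modulo an odd normal subgroup -/
theorem exists_conj_mem {N K P : Subgroup G} [N.Normal] (hN : Odd (Nat.card N)) (hNK : N ≤ K)
    (hK : IsPGroup 2 (K.map (QuotientGroup.mk' N))) (hP : SigF.IsSyl 2 P K) {a : G} (ha : ∃ k : ℕ, a ^ 2 ^ k = 1)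
    (haK : a ∈ K) : ∃ n ∈ N, n * a * n⁻¹ ∈ P := by
  haveI : Fact (Nat.Prime 2) := ⟨Nat.prime_two⟩
  have hPK : N ⊔ P = K := by
    apply le_antisymm (sup_le hNK hP.le)
    have h1 : ¬ 2 ∣ (N ⊔ P).relIndex K := by
      intro h2
      apply hP.not_dvd_relIndex
      rw [← Subgroup.relIndex_mul_relIndex P (N ⊔ P) K le_sup_right (sup_le hNK hP.le)]
      exact dvd_mul_of_dvd_right h2 _
    have h3 : (N ⊔ P).relIndex K ∣ Nat.card (K.map (QuotientGroup.mk' N)) := by
      have h4 : N.relIndex K = Nat.card (K.map (QuotientGroup.mk' N)) := by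
        have h5 := Subgroup.relIndex_ker (K := K) (QuotientGroup.mk' N)
        rwa [QuotientGroup.ker_mk'] at h5
      rw [← h4, ← Subgroup.relIndex_mul_relIndex N (N ⊔ P) K le_sup_left (sup_le hNK hP.le)]
      exact dvd_mul_left _ _
    obtain ⟨m, hm⟩ := IsPGroup.iff_card.1 hK
    rw [hm] at h3
    obtain ⟨j, hj, hj'⟩ := (Nat.dvd_prime_pow Nat.prime_two).1 h3
    rw [hj'] at h1
    have hj0 : j = 0 := by
      by_contra hne
      exact h1 (dvd_pow_self 2 hne)
    rw [hj0, pow_zero] at hj'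
    exact Subgroup.relIndex_eq_one.1 hj'
  obtain ⟨Q, hQ, haQ⟩ := SigF.exists_isSyl_ge (isPGroup_zpowers ha) (by rwa [zpowers_le] : zpowers a ≤ K)
  obtain ⟨k, hk, hkQ⟩ := hQ.exists_cj hP
  rw [← hPK] at hk
  obtain ⟨p, hp, n, hn, rfl⟩ := mem_sup_norm (H := P) (K := N) le_normalizer_of_normal (by rwa [sup_comm])
  refine ⟨n, hn, ?_⟩
  have h1 : p * n * a * (p * n)⁻¹ ∈ P := by
    rw [← hkQ]
    exact SigF.conj_mem_cj (haQ (mem_zpowers a))
  have h2 : n * a * n⁻¹ = p⁻¹ * (p * n * a * (p * n)⁻¹) * p := by group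
  rw [h2]
  exact P.mul_mem (P.mul_mem (P.inv_mem hp) h1) hp

theorem PT.quot_odd (h : PT S T) (N : Subgroup G) [N.Normal] (hN : Odd (Nat.card N)) :
    PT (QuotientGroup.mk' N '' S) (QuotientGroup.mk' N '' T) := by
  haveI : Fact (Nat.Prime 2) := ⟨Nat.prime_two⟩
  have hlift : ∀ P' : Subgroup (G ⧸ N), IsPGroup 2 P' → ∃ P : Subgroup G, IsPGroup 2 P ∧
      (∀ a ∈ S, QuotientGroup.mk' N a ∈ P' → ∃ b ∈ S, b ∈ P ∧ QuotientGroup.mk' N b = QuotientGroup.mk' N a) ∧
      (∀ a ∈ T, QuotientGroup.mk' N a ∈ P' → ∃ b ∈ T, b ∈ P ∧ QuotientGroup.mk' N b = QuotientGroup.mk' N a) := by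
    intro P' hP'
    set K := P'.comap (QuotientGroup.mk' N) with hK
    have hNK : N ≤ K := by
      intro n hn
      rw [hK, Subgroup.mem_comap, QuotientGroup.mk'_apply, (QuotientGroup.eq_one_iff n).2 hn]
      exact P'.one_mem
    have hKm : K.map (QuotientGroup.mk' N) = P' :=
      Subgroup.map_comap_eq_self_of_surjective (QuotientGroup.mk'_surjective N) P'
    obtain ⟨P, hP⟩ := SigF.exists_isSyl 2 K
    have key : ∀ a : G, (∃ k : ℕ, a ^ 2 ^ k = 1) → QuotientGroup.mk' N a ∈ P' →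
        ∃ n : G, n * a * n⁻¹ ∈ P ∧ QuotientGroup.mk' N (n * a * n⁻¹) = QuotientGroup.mk' N a := by
      intro a ha haP
      obtain ⟨n, hn, hn'⟩ := exists_conj_mem hN hNK (by rwa [hKm]) hP ha haP
      refine ⟨n, hn', ?_⟩
      have h1 : QuotientGroup.mk' N n = 1 := (QuotientGroup.eq_one_iff n).2 hn
      rw [map_mul, map_mul, map_inv, h1]
      simp
    refine ⟨P, hP.isPGroup, ?_, ?_⟩
    · intro a ha haP
      obtain ⟨n, hn, hn'⟩ := key a (h.two_left a ha) haP
      exact ⟨_, h.conj_left n a ha, hn, hn'⟩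
    · intro a ha haP
      obtain ⟨n, hn, hn'⟩ := key a (h.two_right a ha) haP
      exact ⟨_, h.conj_right n a ha, hn, hn'⟩
  refine h.image _ (QuotientGroup.mk'_surjective N) hlift ?_
  intro a ha b hb hab
  have h1 : IsPGroup 2 (zpowers (QuotientGroup.mk' N a)) := by
    apply isPGroup_zpowers
    obtain ⟨k, hk⟩ := h.two_left a ha
    exact ⟨k, by rw [← map_pow, hk, map_one]⟩
  obtain ⟨P, hP, hS, hT⟩ := hlift _ h1
  obtain ⟨a', ha', haP', hea⟩ := hS a ha (mem_zpowers _)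
  obtain ⟨b', hb', hbP', heb⟩ := hT b hb (by rw [← hab]; exact mem_zpowers _)
  have h2 : a'⁻¹ * b' ∈ N := by
    rw [← QuotientGroup.eq]
    have : QuotientGroup.mk' N a' = QuotientGroup.mk' N b' := by rw [hea, heb, hab]
    exact this
  have h3 : a'⁻¹ * b' = 1 := by
    have h4 : a'⁻¹ * b' ∈ P := P.mul_mem (P.inv_mem haP') hbP'
    obtain ⟨k, hk⟩ := two_pow_of_mem hP h4
    have h5 : orderOf (a'⁻¹ * b') ∣ 2 ^ k := orderOf_dvd_of_pow_eq_one hk
    have h6 : orderOf (a'⁻¹ * b') ∣ Nat.card N := Subgroup.orderOf_dvd_natCard N h2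
    have h7 : (2 ^ k).Coprime (Nat.card N) := (Nat.coprime_two_left.2 hN).pow_left k
    exact orderOf_eq_one_iff.1 (Nat.eq_one_of_dvd_coprimes h7 h5 h6)
  have h8 : b' = a' := by
    rw [inv_mul_eq_one] at h3
    exact h3.symm
  rw [h8] at hb'
  rw [← hea, h.disj a' ha' hb', map_one]

/-- quotients by normal 2-subgroups -/
theorem PT.quot_two (h : PT S T) (V : Subgroup G) [V.Normal] (hV : IsPGroup 2 V)
    (hd : ∀ a ∈ S, ∀ b ∈ T, QuotientGroup.mk' V a = QuotientGroup.mk' V b → QuotientGroup.mk' V a = 1) :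
    PT (QuotientGroup.mk' V '' S) (QuotientGroup.mk' V '' T) := by
  refine h.image _ (QuotientGroup.mk'_surjective V) ?_ hd
  intro P' hP'
  refine ⟨P'.comap (QuotientGroup.mk' V), ?_, fun a ha haP => ⟨a, ha, haP, rfl⟩, fun a ha haP => ⟨a, ha, haP, rfl⟩⟩
  apply hP'.comap_of_ker_isPGroup
  rwa [QuotientGroup.ker_mk']

/-- A central product of an element of `S` and one of `T`. -/
theorem central_of_mul_central (h : PT S T) (hO : Cfsg.oddCore G = ⊥)
    (hc : ∀ a ∈ closure S, ∀ b ∈ closure T, a * b = b * a) {x y : G} (hx : x ∈ S) (hy : y ∈ T)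
    (hz : ∀ g : G, g * (x * y) = x * y * g) (g : G) : g * x = x * g := by
  set c := x⁻¹ * (g * x * g⁻¹) with hc'
  have hcS : c ∈ closure S :=
    mul_mem (inv_mem (subset_closure hx)) (subset_closure (h.conj_left g x hx))
  have hcT' : c = y * (g * y * g⁻¹)⁻¹ := by
    have h1 : x * y = g * (x * y) * g⁻¹ := by rw [hz]; group
    have h2 : x * y = (g * x * g⁻¹) * (g * y * g⁻¹) := by rw [h1]; group
    rw [hc', inv_mul_eq_iff_eq_mul, ← mul_assoc, eq_mul_inv_iff_mul_eq]
    exact h2.symm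
  have hcT : c ∈ closure T := by
    rw [hcT']
    exact mul_mem (subset_closure hy) (inv_mem (subset_closure (h.conj_right g y hy)))
  have hSn : (closure S).Normal := by
    rw [← normalizer_eq_top_iff, eq_top_iff]
    exact le_normalizer_closure fun g _ x hx => h.conj_left g x hx
  have hTn : (closure T).Normal := by
    rw [← normalizer_eq_top_iff, eq_top_iff]
    exact le_normalizer_closure fun g _ x hx => h.conj_right g x hx
  have hN : (closure S ⊓ closure T).Normal := inferInstance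
  have hab : ∀ a ∈ closure S ⊓ closure T, ∀ b ∈ closure S ⊓ closure T, a * b = b * a :=
    fun a ha b hb => hc a ha.1 b hb.2
  -- c is a 2-element
  have hc2 : ∃ k : ℕ, c ^ 2 ^ k = 1 := by
    obtain ⟨k, m, hm, hkm⟩ := Nat.exists_eq_two_pow_mul_odd (orderOf_pos c).ne'
    refine ⟨k, eq_one_of_odd_of_abelian hO _ hN hab ((closure S ⊓ closure T).pow_mem ⟨hcS, hcT⟩ _) ?_⟩
    have h1 : orderOf (c ^ 2 ^ k) ∣ m := by
      apply orderOf_dvd_of_pow_eq_one
      rw [← pow_mul, ← hkm, pow_orderOf_eq_one]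
    exact Odd.of_dvd_nat hm h1
  have hcx : c * x = x * c := (hc x (subset_closure hx) c hcT).symm
  have hcy : c * y = y * c := hc c hcS y (subset_closure hy)
  obtain ⟨P, hP, hcP, hxP⟩ := exists_pgroup_of_commute hc2 (h.two_left x hx) hcx
  obtain ⟨Q, hQ, hcQ, hyQ⟩ := exists_pgroup_of_commute hc2 (h.two_right y hy) hcy
  have hcS' : c ∈ S := by
    rw [hc']
    refine h.mul_left P hP _ (h.inv_left hx) _ (h.conj_left g x hx) (P.inv_mem hxP) ?_
    have : g * x * g⁻¹ = x * c := by rw [hc']; group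
    rw [this]
    exact P.mul_mem hxP hcP
  have hcT'' : c ∈ T := by
    rw [hcT']
    refine h.mul_right Q hQ _ hy _ (h.symm.inv_left (h.conj_right g y hy)) hyQ ?_
    have : (g * y * g⁻¹)⁻¹ = y⁻¹ * c := by rw [hcT']; group
    rw [this]
    exact Q.mul_mem (Q.inv_mem hyQ) hcQ
  have h1 := h.disj c hcS' hcT''
  rw [hc', inv_mul_eq_one] at h1
  rw [eq_mul_inv_iff_mul_eq] at h1
  exact h1.symm

/-- two factorizations of a central element -/
theorem eq_of_mul_eq_central (h : PT S T) (hO : Cfsg.oddCore G = ⊥)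
    (hc : ∀ a ∈ closure S, ∀ b ∈ closure T, a * b = b * a) {x y x' y' : G} (hx : x ∈ S) (hy : y ∈ T)
    (hx' : x' ∈ S) (hy' : y' ∈ T) (he : x * y = x' * y')
    (hz : ∀ g : G, g * (x * y) = x * y * g) : x = x' := by
  have h1 := central_of_mul_central h hO hc hx hy hz
  have h2 := central_of_mul_central h hO hc hx' hy' (by rwa [← he])
  have h3 : x * y = y * x := hc x (subset_closure hx) y (subset_closure hy)
  have h4 : x' * y' = y' * x' := hc x' (subset_closure hx') y' (subset_closure hy')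
  -- c = x⁻¹ x' = y y'⁻¹
  have h5 : x⁻¹ * x' = y * y'⁻¹ := by
    rw [inv_mul_eq_iff_eq_mul, ← mul_assoc, eq_mul_inv_iff_mul_eq]
    exact he.symm
  obtain ⟨P, hP, hxP, hxP'⟩ := exists_pgroup_of_commute (h.two_left x hx) (h.two_left x' hx') (h1 x').symm
  have h6 : x⁻¹ * x' ∈ S := h.mul_left P hP _ (h.inv_left hx) _ hx' (P.inv_mem hxP) hxP'
  have h7 : y * y' = y' * y := by
    have hcen : ∀ g : G, g * y' = y' * g := by
      intro g
      have e1 : y' = x'⁻¹ * (x * y) := by rw [he]; group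
      rw [e1]
      have e2 : g * x'⁻¹ = x'⁻¹ * g := by
        have := h2 g
        rw [eq_inv_mul_iff_mul_eq, ← mul_assoc, mul_inv_eq_iff_eq_mul]
        exact this.symm
      rw [← mul_assoc, e2, mul_assoc, hz, ← mul_assoc, ← mul_assoc]
    exact hcen y
  obtain ⟨Q, hQ, hyQ, hyQ'⟩ := exists_pgroup_of_commute (h.two_right y hy) (h.two_right y' hy') h7
  have h8 : x⁻¹ * x' ∈ T := by
    rw [h5]
    exact h.mul_right Q hQ _ hy _ (h.symm.inv_left hy') hyQ (Q.inv_mem hyQ')
  have h9 := h.disj _ h6 h8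
  rwa [inv_mul_eq_one] at h9

end Cfsg.Agent.GPF
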