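import Cfsg.Agent.GPF.Loc2

set_option autoImplicit false
set_option linter.all false

/-!
Local lemmas, third part.
-/

namespace Cfsg.Agent.GPF

open Subgroup
open scoped commutatorElement Pointwise

variable {G : Type*} [Group G]

theorem mem_OO_iff {H : Subgroup G} (x : H) : (x : G) ∈ OO H ↔ x ∈ Cfsg.oddCore ↥H := by
  constructor
  · rintro ⟨y, hy, hyx⟩
    rwa [← Subtype.ext hyx]
  · intro h
    exact ⟨x, h, rfl⟩

variable [Finite G] {S T : Set G} {H : Subgroup G}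

theorem mem_OO_of_odd {N : Subgroup G} (hNH : N ≤ H) (hn : H ≤ normalizer (N : Set G))
    (hNN : ∀ a ∈ N, ∀ b ∈ N, ⁅a, b⁆ ∈ OO H) {e : G} (he : e ∈ N) (hodd : Odd (orderOf e)) : e ∈ OO H := by
  have h1 : (N.subgroupOf H).Normal := Subgroup.normal_subgroupOf_of_le_normalizer hn
  set π := QuotientGroup.mk' (Cfsg.oddCore ↥H) with hπ
  have h2 : ((N.subgroupOf H).map π).Normal := h1.map π (QuotientGroup.mk'_surjective _)
  have h3 : Cfsg.oddCore (↥H ⧸ Cfsg.oddCore ↥H) = ⊥ := Cfsg.Agent.Solv.pPrimeCore_quotient_pPrimeCore 2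
  have h4 := eq_one_of_odd_of_abelian h3 ((N.subgroupOf H).map π) h2 (by
    rintro _ ⟨a, ha, rfl⟩ _ ⟨b, hb, rfl⟩
    rw [← commutatorElement_eq_one_iff_mul_comm, ← map_commutatorElement]
    refine (QuotientGroup.eq_one_iff _).2 ((mem_OO_iff _).1 ?_)
    exact hNN _ ha _ hb) (e := π ⟨e, hNH he⟩) ⟨_, Subgroup.mem_subgroupOf.2 he, rfl⟩ (by
      have h5 : orderOf (π ⟨e, hNH he⟩) ∣ orderOf e := by
        apply orderOf_dvd_of_pow_eq_one
        rw [← map_pow]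
        have : (⟨e, hNH he⟩ : H) ^ orderOf e = 1 := Subtype.ext (by push_cast; exact pow_orderOf_eq_one e)
        rw [this, map_one]
      exact Odd.of_dvd_nat hodd h5)
  exact (mem_OO_iff (⟨e, hNH he⟩ : H)).2 ((QuotientGroup.eq_one_iff _).1 h4)

theorem b4 (h : PT S T) (hH : LocC S T H) {x y : G} (hx : x ∈ S) (hxH : x ∈ H) (hy : y ∈ T) (hyH : y ∈ H)
    {V : Subgroup G} (hVH : V ≤ H) (hV : Odd (Nat.card V)) (hyV : ∀ v ∈ V, y * v * y⁻¹ ∈ V)
    (hxy : ∀ v ∈ V, (x * y) * v = v * (x * y)) {v : G} (hv : v ∈ V) : ⁅v, y⁆ ∈ OO H := by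
  have hvV : ⁅v, y⁆ ∈ V := by
    rw [commutatorElement_def]
    have : v * y * v⁻¹ * y⁻¹ = v * (y * v⁻¹ * y⁻¹) := by group
    rw [this]
    exact V.mul_mem hv (hyV _ (V.inv_mem hv))
  have hodd : Odd (orderOf ⁅v, y⁆) := Odd.of_dvd_nat hV (Subgroup.orderOf_dvd_natCard V hvV)
  have hT : ⁅v, y⁆ ∈ NN T H := by
    rw [commutatorElement_def]
    exact (NN T H).mul_mem (conj_of_le (le_normalizer_NN h.conj_right H) (hVH hv) (mem_NN hy hyH))
      ((NN T H).inv_mem (mem_NN hy hyH))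
  have hS : ⁅v, y⁆ ∈ NN S H := by
    have h1 := hxy v⁻¹ (V.inv_mem hv)
    have h2 : ⁅v, y⁆ = (v * x⁻¹ * v⁻¹) * x := by
      rw [commutatorElement_def]
      have h3 : y * v⁻¹ * y⁻¹ = x⁻¹ * v⁻¹ * x := by
        rw [mul_inv_eq_iff_eq_mul]
        have h4 : y * v⁻¹ = x⁻¹ * (x * y * v⁻¹) := by group
        rw [h4, h1]; group
      have h5 : v * y * v⁻¹ * y⁻¹ = v * (y * v⁻¹ * y⁻¹) := by group
      rw [h5, h3]; group
    rw [h2]
    exact (NN S H).mul_mem (conj_of_le (le_normalizer_NN h.conj_left H) (hVH hv)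
      ((NN S H).inv_mem (mem_NN hx hxH))) (mem_NN hx hxH)
  refine mem_OO_of_odd (N := NN S H ⊓ NN T H) (inf_le_left.trans (NN_le S H)) ?_ ?_ ⟨hS, hT⟩ hodd
  · apply le_normalizer_of_conj
    intro g hg x hx
    exact ⟨conj_of_le (le_normalizer_NN h.conj_left H) hg hx.1, conj_of_le (le_normalizer_NN h.conj_right H) hg hx.2⟩
  · intro a ha b hb
    exact hH (commutator_mem_commutator ha.1 hb.2)

theorem mem_closure_preimage {a : H} (ha : a ∈ closure (H.subtype ⁻¹' S)) : (a : G) ∈ NN S H := by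
  have h1 : (closure (H.subtype ⁻¹' S)).map H.subtype ≤ NN S H := by
    rw [MonoidHom.map_closure]
    apply Subgroup.closure_mono
    rintro _ ⟨y, hy, rfl⟩
    exact ⟨hy, y.2⟩
  exact h1 ⟨a, ha, rfl⟩

theorem NN_le_map (S : Set G) (H : Subgroup G) : NN S H ≤ (closure (H.subtype ⁻¹' S)).map H.subtype := by
  rw [MonoidHom.map_closure]
  apply Subgroup.closure_mono
  rintro x ⟨hx, hxH⟩
  exact ⟨⟨x, hxH⟩, hx, rfl⟩

theorem locC_of_restrict (h : ⁅closure (H.subtype ⁻¹' S), closure (H.subtype ⁻¹' T)⁆ ≤ Cfsg.oddCore ↥H) :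
    LocC S T H := by
  unfold LocC
  refine (commutator_mono (NN_le_map S H) (NN_le_map T H)).trans ?_
  rw [← map_commutator]
  exact Subgroup.map_mono h

/-- the quotient of `H` by its odd core -/
theorem quot_data (h : PT S T) (hH : LocC S T H) :
    PT (QuotientGroup.mk' (Cfsg.oddCore ↥H) '' (H.subtype ⁻¹' S)) (QuotientGroup.mk' (Cfsg.oddCore ↥H) '' (H.subtype ⁻¹' T)) ∧
    ∀ a ∈ closure (QuotientGroup.mk' (Cfsg.oddCore ↥H) '' (H.subtype ⁻¹' S)),
      ∀ b ∈ closure (QuotientGroup.mk' (Cfsg.oddCore ↥H) '' (H.subtype ⁻¹' T)), a * b = b * a := by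
  constructor
  · apply (h.restrict H).quot_odd
    rw [← Nat.coprime_two_right]
    exact Cfsg.Agent.Solv.pPrimeCore_card_coprime 2
  · intro a ha b hb
    rw [← MonoidHom.map_closure] at ha hb
    obtain ⟨a, ha, rfl⟩ := ha
    obtain ⟨b, hb, rfl⟩ := hb
    rw [← commutatorElement_eq_one_iff_mul_comm, ← map_commutatorElement]
    refine (QuotientGroup.eq_one_iff _).2 ((mem_OO_iff _).1 ?_)
    exact hH (commutator_mem_commutator (mem_closure_preimage ha) (mem_closure_preimage hb))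

theorem q3 (h : PT S T) (hH : LocC S T H) {x y : G} (hx : x ∈ S) (hxH : x ∈ H) (hy : y ∈ T) (hyH : y ∈ H)
    (hz : ∀ g ∈ H, g * (x * y) = (x * y) * g) {g : G} (hg : g ∈ H) : ⁅g, x⁆ ∈ OO H := by
  obtain ⟨h1, h2⟩ := quot_data h hH
  have h3 : Cfsg.oddCore (↥H ⧸ Cfsg.oddCore ↥H) = ⊥ := Cfsg.Agent.Solv.pPrimeCore_quotient_pPrimeCore 2
  set π := QuotientGroup.mk' (Cfsg.oddCore ↥H) with hπ
  have h4 := central_of_mul_central h1 h3 h2 (x := π ⟨x, hxH⟩) (y := π ⟨y, hyH⟩) ⟨_, hx, rfl⟩ ⟨_, hy, rfl⟩ (by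
    intro k
    obtain ⟨k, rfl⟩ := QuotientGroup.mk'_surjective _ k
    rw [← map_mul, ← map_mul, ← map_mul]
    congr 1
    exact Subtype.ext (hz k k.2)) (π ⟨g, hg⟩)
  rw [← commutatorElement_eq_one_iff_mul_comm, ← map_commutatorElement] at h4
  exact (mem_OO_iff (⁅(⟨g, hg⟩ : H), ⟨x, hxH⟩⁆)).2 ((QuotientGroup.eq_one_iff _).1 h4)

theorem q3' (h : PT S T) (hH : LocC S T H) {x y x' y' : G} (hx : x ∈ S) (hxH : x ∈ H) (hy : y ∈ T) (hyH : y ∈ H)
    (hx' : x' ∈ S) (hxH' : x' ∈ H) (hy' : y' ∈ T) (hyH' : y' ∈ H) (he : x * y = x' * y')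
    (hz : ∀ g ∈ H, g * (x * y) = (x * y) * g) : x⁻¹ * x' ∈ OO H := by
  obtain ⟨h1, h2⟩ := quot_data h hH
  have h3 : Cfsg.oddCore (↥H ⧸ Cfsg.oddCore ↥H) = ⊥ := Cfsg.Agent.Solv.pPrimeCore_quotient_pPrimeCore 2
  set π := QuotientGroup.mk' (Cfsg.oddCore ↥H) with hπ
  have h4 := eq_of_mul_eq_central h1 h3 h2 (x := π ⟨x, hxH⟩) (y := π ⟨y, hyH⟩) (x' := π ⟨x', hxH'⟩)
    (y' := π ⟨y', hyH'⟩) ⟨_, hx, rfl⟩ ⟨_, hy, rfl⟩ ⟨_, hx', rfl⟩ ⟨_, hy', rfl⟩ (by
      rw [← map_mul, ← map_mul]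
      congr 1
      exact Subtype.ext he) (by
    intro k
    obtain ⟨k, rfl⟩ := QuotientGroup.mk'_surjective _ k
    rw [← map_mul, ← map_mul, ← map_mul]
    congr 1
    exact Subtype.ext (hz k k.2))
  have h5 : (⟨x, hxH⟩ : H)⁻¹ * ⟨x', hxH'⟩ ∈ Cfsg.oddCore ↥H := by
    rw [← QuotientGroup.eq]
    exact h4
  exact (mem_OO_iff ((⟨x, hxH⟩ : H)⁻¹ * ⟨x', hxH'⟩)).2 h5

/-- two involutions in the same coset of an odd normalized subgroup are conjugate -/
theorem conj_of_coset {M : Subgroup G} (hM : Odd (Nat.card M)) {x x' : G} (hxM : x ∈ normalizer (M : Set G))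
    (hx : x ^ 2 = 1) (hx' : x' ^ 2 = 1) (hx'1 : x' ≠ 1) (hx1 : x ≠ 1) (he : x⁻¹ * x' ∈ M) :
    ∃ e ∈ M, e * x * e⁻¹ = x' := by
  have h1 : orderOf x = 2 := orderOf_eq_prime hx hx1
  have h2 : orderOf x' = 2 := orderOf_eq_prime hx' hx'1
  have h3 : zpowers x' ≤ M ⊔ zpowers x := by
    rw [zpowers_le]
    have : x' = x * (x⁻¹ * x') := by group
    rw [this]
    exact mul_mem (mem_sup_right (mem_zpowers x)) (mem_sup_left he)
  obtain ⟨n, hn, hn'⟩ := Cfsg.Agent.Cop.sz_rel (N := M) (A := zpowers x) (B := zpowers x') (by rwa [zpowers_le]) h3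
    (by rw [Nat.card_zpowers, Nat.card_zpowers, h1, h2]) (by rw [Nat.card_zpowers, h1, Nat.coprime_two_right]; exact hM)
    (Or.inr (by
      haveI : Fact (Nat.Prime 2) := ⟨Nat.prime_two⟩
      have := (isPGroup_zpowers (a := x) ⟨1, by rw [pow_one]; exact hx⟩)
      have h5 : Group.IsNilpotent (zpowers x) := this.isNilpotent
      infer_instance))
  refine ⟨n, hn, ?_⟩
  have h4 : n * x * n⁻¹ ∈ zpowers x' := by
    rw [← hn', Cfsg.Agent.Hall.mem_conj_smul]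
    have : n⁻¹ * (n * x * n⁻¹) * n = x := by group
    rw [this]
    exact mem_zpowers x
  obtain ⟨k, hk⟩ := mem_zpowers_iff.1 h4
  have h6 : ∀ k : ℤ, x' ^ k = 1 ∨ x' ^ k = x' := by
    intro k
    obtain ⟨j, rfl | rfl⟩ := Int.even_or_odd' k
    · left
      rw [zpow_mul]
      have : x' ^ (2 : ℤ) = 1 := by rw [← hx']; norm_cast
      rw [this, one_zpow]
    · right
      rw [zpow_add, zpow_mul, zpow_one]
      have : x' ^ (2 : ℤ) = 1 := by rw [← hx']; norm_cast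
      rw [this, one_zpow, one_mul]
  rcases h6 k with h7 | h7
  · exfalso
    rw [h7] at hk
    apply hx1
    have : x = n⁻¹ * (n * x * n⁻¹) * n := by group
    rw [this, ← hk]; group
  · rw [← hk, h7]

/-- lifting commuting involutions -/
theorem lift_commute {M : Subgroup G} (hM : Odd (Nat.card M)) {x y : G} (hxM : x ∈ normalizer (M : Set G))
    (hyM : y ∈ normalizer (M : Set G)) (hx : x ^ 2 = 1) (hy : y ^ 2 = 1) (hy1 : y ≠ 1) (he : ⁅x, y⁆ ∈ M) :
    ∃ e ∈ M, x * (e * y * e⁻¹) = e * y * e⁻¹ * x := by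
  have hx2 := isPGroup_zpowers (a := x) ⟨1, by rw [pow_one]; exact hx⟩
  obtain ⟨c, hc1, hc2⟩ := exists_fix_mod (A := zpowers x) (D := M) hx2 hM (by rwa [zpowers_le]) (n := y) (by
    intro a ha
    have h6 : a = 1 ∨ a = x := by
      obtain ⟨k, hk⟩ := mem_zpowers_iff.1 ha
      obtain ⟨j, rfl | rfl⟩ := Int.even_or_odd' k
      · left
        rw [← hk, zpow_mul]
        have : x ^ (2 : ℤ) = 1 := by rw [← hx]; norm_cast
        rw [this, one_zpow]
      · right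
        rw [← hk, zpow_add, zpow_mul, zpow_one]
        have : x ^ (2 : ℤ) = 1 := by rw [← hx]; norm_cast
        rw [this, one_zpow, one_mul]
    rcases h6 with rfl | rfl
    · rw [commutatorElement_one_left]; exact M.one_mem
    · exact he) hyM
  -- c = y * m, c ^ 2 ∈ M
  set m := y⁻¹ * c with hm
  have hcy : c = y * m := by rw [hm]; group
  have hc2M : c ^ 2 ∈ M := by
    have : c ^ 2 = (y * m * y⁻¹) * (y ^ 2 * m) := by rw [hcy, pow_two, pow_two]; group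
    rw [this, hy, one_mul]
    exact M.mul_mem ((Subgroup.mem_normalizer_iff.1 hyM m).1 hc1) hc1
  set k := orderOf (c ^ 2) with hk
  have hkodd : Odd k := Odd.of_dvd_nat hM (Subgroup.orderOf_dvd_natCard M hc2M)
  obtain ⟨j, hj⟩ := hkodd
  have hck : (c ^ k) ^ 2 = 1 := by
    rw [← pow_mul, mul_comm, pow_mul, hk, pow_orderOf_eq_one]
  have hcoset : y⁻¹ * c ^ k ∈ M := by
    rw [hj, pow_succ, pow_mul]
    have h1 : (c ^ 2) ^ j ∈ M := M.pow_mem hc2M j
    have h2 : y⁻¹ * ((c ^ 2) ^ j * c) = (y⁻¹ * (c ^ 2) ^ j * y) * m := by rw [hm]; group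
    rw [h2]
    refine M.mul_mem ?_ hc1
    have := (Subgroup.mem_normalizer_iff.1 (inv_mem hyM) ((c ^ 2) ^ j)).1 h1
    rwa [inv_inv] at this
  have hck1 : c ^ k ≠ 1 := by
    intro h1
    rw [h1, mul_one] at hcoset
    have h3 : orderOf y = 2 := orderOf_eq_prime hy hy1
    have h4 : orderOf y⁻¹ ∣ Nat.card M := Subgroup.orderOf_dvd_natCard M hcoset
    rw [orderOf_inv, h3] at h4
    exact not_two_dvd hM h4
  obtain ⟨e, he, he'⟩ := conj_of_coset hM hyM hy hck hck1 hy1 hcoset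
  refine ⟨e, he, ?_⟩
  rw [he']
  have : Commute x c := hc2 x (mem_zpowers x)
  exact this.pow_right k

end Cfsg.Agent.GPF
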