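import Cfsg.Agent.GPF.Graph2

set_option autoImplicit false
set_option linter.all false

/-!
The main theorem on product fusion, from three inputs.
-/

namespace Cfsg.Agent.GPF

open Subgroup
open scoped commutatorElement Pointwise

universe u

/-- The three inputs: generation, signalizer functors, isolated involutions. -/
structure Inp : Prop where
  g29 : ∀ (G : Type u) [Group G] [Finite G], Gen29 G
  sft : ∀ (G : Type u) [Group G] [Finite G], SFT2 G
  zst : ∀ (G : Type u) [Group G] [Finite G] (P : Sylow 2 G) (x : G), orderOf x = 2 → x ∈ P →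
    (∀ g : G, g * x * g⁻¹ ∈ P → g * x * g⁻¹ = x) →
    ∃ N : Subgroup G, N.Normal ∧ Odd (Nat.card N) ∧ ∀ g : G, (x * g * x⁻¹ * g⁻¹) ∈ N

section lemmas

variable {G : Type*} [Group G] [Finite G] {S T : Set G}

theorem odd_inf_normal (hO : Cfsg.oddCore G = ⊥) {L M : Subgroup G} (hLn : L.Normal) (hLM : L ≤ M) :
    OO M ⊓ L = ⊥ := by
  have h1 : OO M ⊓ L ≤ OO L := by
    apply le_OO inf_le_right (odd_of_le inf_le_left (OO_odd M))
    intro l hl
    have h2 : l ∈ normalizer (OO M : Set G) := le_normalizer_OO_self M (hLM hl)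
    have h3 : l ∈ normalizer (L : Set G) := Subgroup.le_normalizer hl
    rw [SigF.mem_normalizer_iff_cj] at h2 h3 ⊢
    rw [SigF.cj_inf, h2, h3]
  have h2 : OO L ≤ OO ⊤ := OO_le_OO_of_normal le_top (by rw [normalizer_eq_top_iff.2 hLn])
  rw [OO_top, hO] at h2
  exact le_bot_iff.1 (h1.trans h2)

theorem closure_normal (hS : ∀ g a : G, a ∈ S → g * a * g⁻¹ ∈ S) : (closure S).Normal := by
  rw [← normalizer_eq_top_iff, eq_top_iff]
  exact le_normalizer_closure fun g _ x hx => hS g x hx

/-- a normal subgroup, odd modulo a central normal 2-subgroup -/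
theorem le_of_central_two (hO : Cfsg.oddCore G = ⊥) {D V : Subgroup G} (hD : D.Normal) [V.Normal]
    (hV : IsPGroup 2 V) (hDV : D ≤ centralizer (V : Set G)) (hodd : Odd (Nat.card (D.map (QuotientGroup.mk' V)))) :
    D ≤ V := by
  haveI : Fact (Nat.Prime 2) := ⟨Nat.prime_two⟩
  set N : Subgroup D := V.subgroupOf D with hN
  haveI hNn : N.Normal := by rw [hN]; infer_instance
  have hN2 : IsPGroup 2 N := hV.comap_of_injective D.subtype D.subtype_injective
  have hidx : N.index = Nat.card (D.map (QuotientGroup.mk' V)) := by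
    have h5 := Subgroup.relIndex_ker (K := D) (QuotientGroup.mk' V)
    rwa [QuotientGroup.ker_mk'] at h5
  have hcop : (Nat.card N).Coprime N.index := by
    rw [hidx]
    obtain ⟨n, hn⟩ := IsPGroup.iff_card.1 hN2
    rw [hn]
    exact (Nat.coprime_two_left.2 hodd).pow_left n
  obtain ⟨K, hK⟩ := Subgroup.exists_right_complement'_of_coprime hcop
  have hcen : ∀ n ∈ N, ∀ d : D, d * n = n * d := by
    intro n hn d
    have := mem_centralizer_iff.1 (hDV d.2) (n : G) (Subgroup.mem_subgroupOf.1 hn)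
    exact Subtype.ext this.symm
  have hKn : K.Normal := by
    constructor
    intro k hk d
    obtain ⟨n, hn, k', hk', rfl⟩ : ∃ n ∈ N, ∃ k' ∈ K, n * k' = d := by
      have h1 : d ∈ N ⊔ K := by rw [hK.sup_eq_top]; exact mem_top d
      exact mem_sup_norm (H := N) (K := K) (x := d) (by
        intro n hn
        refine Subgroup.centralizer_le_normalizer _ (mem_centralizer_iff.2 fun k _ => ?_)
        exact hcen n hn k) h1
    have h2 : n * k' * k * (n * k')⁻¹ = k' * k * k'⁻¹ := by
      have h3 := hcen n hn (k' * k * k'⁻¹)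
      calc n * k' * k * (n * k')⁻¹ = n * (k' * k * k'⁻¹) * n⁻¹ := by group
        _ = (k' * k * k'⁻¹) * n * n⁻¹ := by rw [h3]
        _ = k' * k * k'⁻¹ := by group
    rw [h2]
    exact K.mul_mem (K.mul_mem hk' hk) (K.inv_mem hk')
  have hKodd : (Nat.card K).Coprime 2 := by
    rw [Nat.coprime_two_right]
    have h4 := hK.symm.index_eq_card
    rw [← h4, hidx]
    exact hodd
  have h5 := Cfsg.Agent.Solv.le_pPrimeCore hKn hKodd
  haveI := hD
  have h6 := Cfsg.Agent.Solv.map_subtype_pPrimeCore_le 2 D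
  rw [show Cfsg.pPrimeCore 2 G = ⊥ from hO] at h6
  have h7 : K = ⊥ := by
    rw [eq_bot_iff]
    intro k hk
    have h8 := h6 (mem_map_of_mem D.subtype (h5 hk))
    exact Subgroup.mem_bot.2 (Subtype.ext (Subgroup.mem_bot.1 h8))
  have h8 : N = ⊤ := by
    have := hK.sup_eq_top
    rwa [h7, sup_bot_eq] at this
  rw [hN, subgroupOf_eq_top] at h8
  exact h8

/-- commutators in a normal 2-subgroup -/
theorem comm_of_le_two (h : PT S T) {V : Subgroup G} [V.Normal] (hV : IsPGroup 2 V)
    (hD : ⁅closure S, closure T⁆ ≤ V) : ⁅closure S, closure T⁆ = ⊥ := by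
  haveI : Fact (Nat.Prime 2) := ⟨Nat.prime_two⟩
  have key : ∀ a ∈ S, ∀ b ∈ T, a * b = b * a := by
    intro a ha b hb
    have h1 : ⁅a, b⁆ ∈ V := hD (commutator_mem_commutator (subset_closure ha) (subset_closure hb))
    set π := QuotientGroup.mk' V with hπ
    have h2 : π a * π b = π b * π a := by
      rw [← commutatorElement_eq_one_iff_mul_comm, ← map_commutatorElement]
      exact (QuotientGroup.eq_one_iff _).2 h1
    obtain ⟨P, hP, haP, hbP⟩ := exists_pgroup_of_commute (a := π a) (b := π b)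
      (by obtain ⟨k, hk⟩ := h.two_left a ha; exact ⟨k, by rw [← map_pow, hk, map_one]⟩)
      (by obtain ⟨k, hk⟩ := h.two_right b hb; exact ⟨k, by rw [← map_pow, hk, map_one]⟩) h2
    have h3 : IsPGroup 2 (P.comap π) := hP.comap_of_ker_isPGroup _ (by rwa [hπ, QuotientGroup.ker_mk'])
    exact h.comm _ h3 a ha b hb haP hbP
  rw [commutator_eq_bot_iff_le_centralizer, centralizer_closure, closure_le]
  intro a ha
  rw [SetLike.mem_coe, mem_centralizer_iff]
  intro b hb
  exact (key a ha b hb).symm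

theorem sylow_of_isSyl {P : Subgroup G} (hP : SigF.IsSyl 2 P ⊤) : ∃ Q : Sylow 2 G, (Q : Subgroup G) = P :=
  ⟨⟨P, hP.isPGroup, fun {R} hR hPR => hP.eq_of_le hR le_top hPR⟩, rfl⟩

end lemmas

theorem main_aux (I : Inp.{u}) : ∀ (n : ℕ) (G : Type u) [Group G] [Finite G], Nat.card G = n → ∀ S T : Set G,
    PT S T → ⁅closure S, closure T⁆ ≤ Cfsg.oddCore G := by
  haveI : Fact (Nat.Prime 2) := ⟨Nat.prime_two⟩
  intro n
  induction n using Nat.strong_induction_on with
  | _ n ih =>
  intro G _ _ hn S T h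
  -- the quotient by the odd core
  by_cases hO : Cfsg.oddCore G = ⊥
  swap
  · set N := Cfsg.oddCore G with hN
    have hNodd : Odd (Nat.card N) := by
      rw [← Nat.coprime_two_right]; exact Cfsg.Agent.Solv.pPrimeCore_card_coprime 2
    have hlt : Nat.card (G ⧸ N) < n := by
      rw [← hn, ← Subgroup.index_eq_card]
      have h1 := N.card_mul_index
      have h2 : 1 < Nat.card N := by
        rw [Subgroup.one_lt_card_iff_ne_bot]; exact hO
      have h3 : 0 < N.index := Nat.pos_of_ne_zero Subgroup.index_ne_zero_of_finite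
      calc N.index = 1 * N.index := (one_mul _).symm
        _ < Nat.card N * N.index := Nat.mul_lt_mul_of_pos_right h2 h3
        _ = Nat.card G := h1
    have h1 := ih _ hlt (G ⧸ N) rfl _ _ (h.quot_odd N hNodd)
    rw [show Cfsg.oddCore (G ⧸ N) = ⊥ from Cfsg.Agent.Solv.pPrimeCore_quotient_pPrimeCore 2,
      ← MonoidHom.map_closure, ← MonoidHom.map_closure, ← map_commutator, le_bot_iff, Subgroup.map_eq_bot_iff,
      QuotientGroup.ker_mk'] at h1
    exact h1
  by_contra hDne
  have hD : ⁅closure S, closure T⁆ ≠ ⊥ := by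
    intro h1
    apply hDne
    rw [h1]; exact bot_le
  clear hDne
  have hSn := closure_normal h.conj_left
  have hTn := closure_normal h.conj_right
  -- proper subgroups
  have hloc : ∀ H : Subgroup G, H ≠ ⊤ → LocC S T H := by
    intro H hH
    apply locC_of_restrict
    refine ih _ ?_ H rfl _ _ (h.restrict H)
    rw [← hn]
    exact lt_of_le_of_ne (Subgroup.card_le_card_group H) fun h1 => hH (Subgroup.eq_top_of_card_eq H h1)
  -- quotients by normal 2-subgroups
  have step1 : ∀ (V : Subgroup G) [V.Normal], IsPGroup 2 V → V ≠ ⊥ → ⁅closure S, closure T⁆ ≤ centralizer (V : Set G) →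
      (∀ a ∈ S, ∀ b ∈ T, QuotientGroup.mk' V a = QuotientGroup.mk' V b → QuotientGroup.mk' V a = 1) → False := by
    intro V _ hV hV1 hDV hd
    have hlt : Nat.card (G ⧸ V) < n := by
      rw [← hn, ← Subgroup.index_eq_card]
      have h1 := V.card_mul_index
      have h2 : 1 < Nat.card V := by
        rw [Subgroup.one_lt_card_iff_ne_bot]; exact hV1
      have h3 : 0 < V.index := Nat.pos_of_ne_zero Subgroup.index_ne_zero_of_finite
      calc V.index = 1 * V.index := (one_mul _).symm
        _ < Nat.card V * V.index := Nat.mul_lt_mul_of_pos_right h2 h3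
        _ = Nat.card G := h1
    have h1 := ih _ hlt (G ⧸ V) rfl _ _ (h.quot_two V hV hd)
    rw [← MonoidHom.map_closure, ← MonoidHom.map_closure, ← map_commutator] at h1
    have h2 : Odd (Nat.card ((⁅closure S, closure T⁆).map (QuotientGroup.mk' V))) := by
      refine odd_of_le h1 ?_
      rw [← Nat.coprime_two_right]; exact Cfsg.Agent.Solv.pPrimeCore_card_coprime 2
    exact hD (comm_of_le_two h hV (le_of_central_two hO (commutator_normal _ _) hV hDV h2))
  -- normal 2-subgroups in `S` or `T` are trivial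
  have step2 : ∀ (V : Subgroup G), V.Normal → IsPGroup 2 V → (∀ v ∈ V, v ∈ S) → V = ⊥ := by
    intro V hVn hV hVS
    haveI := hVn
    by_contra hV1
    refine step1 V hV hV1 ?_ ?_
    · refine (commutator_le_right _ _).trans ?_
      rw [closure_le]
      intro b hb
      rw [SetLike.mem_coe, mem_centralizer_iff]
      intro v hv
      have hP := (isPGroup_zpowers (h.two_right b hb)).to_sup_of_normal_right hV
      exact h.comm _ hP v (hVS v hv) b hb (mem_sup_right hv) (mem_sup_left (mem_zpowers b))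
    · intro a ha b hb hab
      have h1 : a⁻¹ * b ∈ V := by
        rw [← QuotientGroup.eq]; exact hab
      have hP := (isPGroup_zpowers (h.two_left a ha)).to_sup_of_normal_right hV
      have h2 : a * (a⁻¹ * b) ∈ S := h.mul_left _ hP a ha _ (hVS _ h1) (mem_sup_left (mem_zpowers a)) (mem_sup_right h1)
      rw [mul_inv_cancel_left] at h2
      rw [hab, h.disj b h2 hb, map_one]
  have step2' : ∀ (V : Subgroup G), V.Normal → IsPGroup 2 V → (∀ v ∈ V, v ∈ T) → V = ⊥ := by
    intro V hVn hV hVT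
    haveI := hVn
    by_contra hV1
    refine step1 V hV hV1 ?_ ?_
    · refine (commutator_le_left _ _).trans ?_
      rw [closure_le]
      intro b hb
      rw [SetLike.mem_coe, mem_centralizer_iff]
      intro v hv
      have hP := (isPGroup_zpowers (h.two_left b hb)).to_sup_of_normal_right hV
      exact (h.comm _ hP b hb v (hVT v hv) (mem_sup_left (mem_zpowers b)) (mem_sup_right hv)).symm
    · intro a ha b hb hab
      have h1 : b⁻¹ * a ∈ V := by
        rw [← QuotientGroup.eq]; exact hab.symm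
      have hP := (isPGroup_zpowers (h.two_right b hb)).to_sup_of_normal_right hV
      have h2 : b * (b⁻¹ * a) ∈ T := h.mul_right _ hP b hb _ (hVT _ h1) (mem_sup_left (mem_zpowers b)) (mem_sup_right h1)
      rw [mul_inv_cancel_left] at h2
      rw [h.disj a ha h2, map_one]
  -- isolated involutions
  have hzst : ∀ P : Subgroup G, SigF.IsSyl 2 P ⊤ → ∀ x ∈ P, (x ∈ S ∨ x ∈ T) → x ^ 2 = 1 → x ≠ 1 →
      ∃ g : G, g * x * g⁻¹ ∈ P ∧ g * x * g⁻¹ ≠ x := by
    intro P hP x hxP hx hx2 hx1
    by_contra hcon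
    push Not at hcon
    obtain ⟨Q, rfl⟩ := sylow_of_isSyl hP
    obtain ⟨N, hNn, hNodd, hN⟩ := I.zst G Q x (orderOf_eq_prime hx2 hx1) hxP hcon
    have h1 := Cfsg.Agent.Solv.le_pPrimeCore hNn (by rwa [Nat.coprime_two_right])
    rw [show Cfsg.pPrimeCore 2 G = ⊥ from hO] at h1
    have hcen : ∀ g : G, x * g = g * x := by
      intro g
      have h2 := Subgroup.mem_bot.1 (h1 (hN g))
      rw [mul_inv_eq_one, mul_inv_eq_iff_eq_mul] at h2
      exact h2
    have hVn : (zpowers x).Normal := by
      rw [← normalizer_eq_top_iff, eq_top_iff]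
      intro g _
      rw [SigF.mem_normalizer_iff_cj, cj_zpowers, ← hcen g]; simp
    have hV2 := isPGroup_zpowers (two_of_sq hx2)
    have h3 : zpowers x = ⊥ := by
      rcases hx with hx | hx
      · exact step2 _ hVn hV2 fun v hv => h.zpowers_left hx hv
      · exact step2' _ hVn hV2 fun v hv => h.symm.zpowers_left hx hv
    rw [zpowers_eq_bot] at h3
    exact hx1 h3
  -- all normal 2-subgroups are trivial
  have step3 : ∀ (V : Subgroup G), V.Normal → IsPGroup 2 V → V = ⊥ := by
    intro V hVn hV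
    haveI := hVn
    have hVS : ∀ v ∈ V, v ∈ S → v = 1 := by
      have h1 := step2 (SP h V hV) (by
        constructor
        rintro a ⟨ha, ha'⟩ g
        exact ⟨hVn.conj_mem a ha g, h.conj_left g a ha'⟩) (hV.to_le fun g hg => hg.1) (fun v hv => hv.2)
      intro v hv hv'
      have h2 : v ∈ SP h V hV := ⟨hv, hv'⟩
      rw [h1] at h2
      exact Subgroup.mem_bot.1 h2
    have hVT : ∀ v ∈ V, v ∈ T → v = 1 := by
      have h1 := step2' (SP h.symm V hV) (by
        constructor
        rintro a ⟨ha, ha'⟩ g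
        exact ⟨hVn.conj_mem a ha g, h.conj_right g a ha'⟩) (hV.to_le fun g hg => hg.1) (fun v hv => hv.2)
      intro v hv hv'
      have h2 : v ∈ SP h.symm V hV := ⟨hv, hv'⟩
      rw [h1] at h2
      exact Subgroup.mem_bot.1 h2
    have hSV : ∀ a ∈ S, ∀ v ∈ V, a * v = v * a := by
      intro a ha v hv
      have hP := (isPGroup_zpowers (h.two_left a ha)).to_sup_of_normal_right hV
      have haP := mem_sup_left (T := V) (mem_zpowers a)
      have hvP : v ∈ zpowers a ⊔ V := mem_sup_right hv
      have h1 : a * (v * a⁻¹ * v⁻¹) ∈ S := h.mul_left _ hP a ha _ (h.conj_left v _ (h.inv_left ha)) haP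
        (mul_mem (mul_mem hvP (inv_mem haP)) (inv_mem hvP))
      have h2 : a * (v * a⁻¹ * v⁻¹) ∈ V := by
        have : a * (v * a⁻¹ * v⁻¹) = (a * v * a⁻¹) * v⁻¹ := by group
        rw [this]
        exact V.mul_mem (hVn.conj_mem v hv a) (V.inv_mem hv)
      have h3 := hVS _ h2 h1
      have h4 : a * v = (a * (v * a⁻¹ * v⁻¹)) * (v * a) := by group
      rw [h4, h3, one_mul]
    have hTV : ∀ a ∈ T, ∀ v ∈ V, a * v = v * a := by
      intro a ha v hv
      have hP := (isPGroup_zpowers (h.two_right a ha)).to_sup_of_normal_right hV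
      have haP := mem_sup_left (T := V) (mem_zpowers a)
      have hvP : v ∈ zpowers a ⊔ V := mem_sup_right hv
      have h1 : a * (v * a⁻¹ * v⁻¹) ∈ T := h.mul_right _ hP a ha _ (h.conj_right v _ (h.symm.inv_left ha)) haP
        (mul_mem (mul_mem hvP (inv_mem haP)) (inv_mem hvP))
      have h2 : a * (v * a⁻¹ * v⁻¹) ∈ V := by
        have : a * (v * a⁻¹ * v⁻¹) = (a * v * a⁻¹) * v⁻¹ := by group
        rw [this]
        exact V.mul_mem (hVn.conj_mem v hv a) (V.inv_mem hv)
      have h3 := hVT _ h2 h1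
      have h4 : a * v = (a * (v * a⁻¹ * v⁻¹)) * (v * a) := by group
      rw [h4, h3, one_mul]
    have hSC : closure S ≤ centralizer (V : Set G) := by
      rw [closure_le]
      intro a ha
      rw [SetLike.mem_coe, mem_centralizer_iff]
      exact fun v hv => (hSV a ha v hv).symm
    have hTC : closure T ≤ centralizer (V : Set G) := by
      rw [closure_le]
      intro a ha
      rw [SetLike.mem_coe, mem_centralizer_iff]
      exact fun v hv => (hTV a ha v hv).symm
    have hC : centralizer (V : Set G) = ⊤ := by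
      by_contra hC
      have h1 := hloc _ hC
      unfold LocC at h1
      have e1 : closure S ≤ NN S (centralizer (V : Set G)) :=
        Subgroup.closure_mono fun a ha => ⟨ha, hSC (subset_closure ha)⟩
      have e2 : closure T ≤ NN T (centralizer (V : Set G)) :=
        Subgroup.closure_mono fun a ha => ⟨ha, hTC (subset_closure ha)⟩
      have h2 : OO (centralizer (V : Set G)) ≤ OO ⊤ :=
        OO_le_OO_of_normal le_top (by rw [normalizer_eq_top_iff.2 (Subgroup.normal_centralizer)])
      rw [OO_top, hO] at h2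
      exact hD (le_bot_iff.1 (((commutator_mono e1 e2).trans h1).trans h2))
    by_contra hV1
    refine step1 V hV hV1 (by rw [hC]; exact le_top) ?_
    intro a ha b hb hab
    by_contra ha1'
    have ha1 : a ≠ 1 := by rintro rfl; exact ha1' (map_one _)
    have hc : a⁻¹ * b ∈ V := by
      rw [← QuotientGroup.eq]; exact hab
    set c := a⁻¹ * b with hcdef
    have hcc : ∀ v ∈ V, ∀ g : G, g * v = v * g := by
      intro v hv g
      have : g ∈ centralizer (V : Set G) := by rw [hC]; exact mem_top g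
      exact (mem_centralizer_iff.1 this v hv).symm
    have hb' : b = a * c := by rw [hcdef]; group
    obtain ⟨k, hk1, hk2⟩ := exists_invol_pow (h.two_left a ha) ha1
    have hbk : b ^ k = a ^ k * c ^ k := by rw [hb']; exact (show Commute a c from hcc c hc a).mul_pow k
    set x := a ^ k with hx
    have hxS : x ∈ S := h.pow_left ha k
    have hyT : b ^ k ∈ T := h.symm.pow_left hb k
    set w := c ^ k with hw
    have hwV : w ∈ V := V.pow_mem hc k
    rw [hbk] at hyT
    obtain ⟨P, hP, hxP⟩ := SigF.exists_isSyl_ge (isPGroup_zpowers (two_of_sq hk1)) (le_top : zpowers x ≤ ⊤)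
    obtain ⟨g, hg1, hg2⟩ := hzst P hP x (hxP (mem_zpowers x)) (Or.inl hxS) hk1 hk2
    apply hg2
    have hPV := hP.isPGroup.to_sup_of_normal_right hV
    have hx1 : x ∈ P ⊔ V := mem_sup_left (hxP (mem_zpowers x))
    have hx2 : g * x * g⁻¹ ∈ P ⊔ V := mem_sup_left hg1
    have hw1 : w ∈ P ⊔ V := mem_sup_right hwV
    have hy' : g * x * g⁻¹ * w ∈ T := by
      have := h.conj_right g _ hyT
      have e : g * (x * w) * g⁻¹ = g * x * g⁻¹ * w := by
        have e2 := hcc w hwV (g⁻¹)
        calc g * (x * w) * g⁻¹ = g * x * (w * g⁻¹) := by group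
          _ = g * x * (g⁻¹ * w) := by rw [← e2]
          _ = g * x * g⁻¹ * w := by group
      rwa [e] at this
    have h5 : x⁻¹ * (g * x * g⁻¹) ∈ S := h.mul_left _ hPV _ (h.inv_left hxS) _ (h.conj_left g x hxS)
      (inv_mem hx1) hx2
    have h6 : (x * w)⁻¹ * (g * x * g⁻¹ * w) ∈ T := h.mul_right _ hPV _ (h.symm.inv_left hyT) _ hy'
      (inv_mem (mul_mem hx1 hw1)) (mul_mem hx2 hw1)
    have h7 : (x * w)⁻¹ * (g * x * g⁻¹ * w) = x⁻¹ * (g * x * g⁻¹) := by
      have e2 := hcc w hwV (x⁻¹ * (g * x * g⁻¹))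
      calc (x * w)⁻¹ * (g * x * g⁻¹ * w) = w⁻¹ * (x⁻¹ * (g * x * g⁻¹) * w) := by group
        _ = w⁻¹ * (w * (x⁻¹ * (g * x * g⁻¹))) := by rw [e2]
        _ = x⁻¹ * (g * x * g⁻¹) := by group
    rw [h7] at h6
    have h8 := h.disj _ h5 h6
    rw [inv_mul_eq_one] at h8
    exact h8.symm
  -- centralizers of 2-elements are proper
  have hprop : ∀ t : G, t ≠ 1 → (∃ k : ℕ, t ^ 2 ^ k = 1) → centralizer ({t} : Set G) ≠ ⊤ := by
    intro t ht ht2 htop
    apply ht
    have hVn : (zpowers t).Normal := by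
      rw [← normalizer_eq_top_iff, eq_top_iff]
      intro g _
      have hg : g * t = t * g := by
        rw [← mem_cent, htop]; exact mem_top g
      rw [SigF.mem_normalizer_iff_cj, cj_zpowers, hg]; simp
    have := step3 _ hVn (isPGroup_zpowers ht2)
    rwa [zpowers_eq_bot] at this
  have hLH : LH S T := ⟨h, fun t ht ht2 => hloc _ (hprop t ht ht2)⟩
  -- rank
  have hrank : ∀ (X Y : Set G) (hXY : PT X Y), (∀ x ∈ X, x ∈ S ∨ x ∈ T) → ∀ P : Subgroup G, SigF.IsSyl 2 P ⊤ →
      ∀ x ∈ P, x ∈ X → x ^ 2 = 1 → x ≠ 1 → ∃ x' ∈ P, x' ∈ X ∧ Four x x' := by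
    intro X Y hXY hXST P hP x hxP hx hx2 hx1
    by_contra hcon
    push Not at hcon
    obtain ⟨z, hz, hzX, hz2, hz1, hzc⟩ := exists_central_S hXY hP.isPGroup hx hxP hx1
    have hzx : z = x := by
      by_contra hne
      exact hcon z hz hzX ⟨hx2, hz2, hx1, hz1, fun h1 => hne h1.symm, hzc x hxP hx⟩
    obtain ⟨g, hg1, hg2⟩ := hzst P hP x hxP (hXST x hx) hx2 hx1
    have hgX := hXY.conj_left g x hx
    refine hcon _ hg1 hgX ⟨hx2, ?_, hx1, ?_, fun h1 => hg2 h1.symm, ?_⟩
    · rw [conj_pow, hx2]; simp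
    · intro h1
      exact hx1 (by simpa using h1)
    · rw [← hzx]
      have := hzc _ hg1 hgX
      rw [hzx] at this ⊢
      exact this.symm
  have hBig : Big S T := ⟨hLH, I.g29 G, I.sft G, hrank S T h (fun x hx => Or.inl hx),
    hrank T S h.symm (fun x hx => Or.inr hx)⟩
  have hcomm := hBig.comm_invol hO step3 hloc
  -- elements against involutions
  have final1 : ∀ (X Y : Set G) (hXY : PT X Y), (∀ H : Subgroup G, H ≠ ⊤ → LocC X Y H) →
      (∀ x ∈ X, ∀ u ∈ Y, x ^ 2 = 1 → u ^ 2 = 1 → x * u = u * x) → ∀ a ∈ X, ∀ u ∈ Y, u ^ 2 = 1 → a * u = u * a := by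
    intro X Y hXY hl hc a ha u hu hu2
    by_cases ha1 : a = 1
    · rw [ha1]; simp
    obtain ⟨k, hk1, hk2⟩ := exists_invol_pow (hXY.two_left a ha) ha1
    have hJ : JJ Y ≤ centralizer ({a ^ k} : Set G) := by
      unfold JJ
      rw [closure_le]
      rintro v ⟨hv, hv2⟩
      exact mem_cent.2 (hc _ (hXY.pow_left ha k) v hv hk1 hv2).symm
    have hne := hprop _ hk2 (two_of_sq hk1)
    have haH : a ∈ centralizer ({a ^ k} : Set G) := mem_cent.2 (by rw [← pow_succ, ← pow_succ'])
    have hJn := JJ_normal hXY.conj_right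
    have h1 : ⁅a, u⁆ ∈ OO (centralizer ({a ^ k} : Set G)) :=
      hl _ hne (commutator_mem_commutator (mem_NN ha haH) (mem_NN hu (hJ (mem_JJ hu hu2))))
    have h2 : ⁅a, u⁆ ∈ JJ Y := by
      rw [commutatorElement_def]
      exact (JJ Y).mul_mem (hJn.conj_mem u (mem_JJ hu hu2) a) ((JJ Y).inv_mem (mem_JJ hu hu2))
    have h3 : ⁅a, u⁆ ∈ OO (centralizer ({a ^ k} : Set G)) ⊓ JJ Y := ⟨h1, h2⟩
    rw [odd_inf_normal hO hJn hJ] at h3
    exact commutatorElement_eq_one_iff_mul_comm.1 (Subgroup.mem_bot.1 h3)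
  have hc1 := final1 S T h hloc hcomm
  have hc2 := final1 T S h.symm (fun H hH => (hloc H hH).symm) (fun x hx u hu hx2 hu2 => (hcomm u hu x hx hu2 hx2).symm)
  apply hD
  rw [commutator_eq_bot_iff_le_centralizer, centralizer_closure, closure_le]
  intro a ha
  rw [SetLike.mem_coe, mem_centralizer_iff]
  intro b hb
  by_cases ha1 : a = 1
  · rw [ha1]; simp
  obtain ⟨k, hk1, hk2⟩ := exists_invol_pow (h.two_left a ha) ha1
  have hT : closure T ≤ centralizer ({a ^ k} : Set G) := by
    rw [closure_le]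
    intro v hv
    exact mem_cent.2 (hc2 v hv _ (h.pow_left ha k) hk1)
  have hne := hprop _ hk2 (two_of_sq hk1)
  have haH : a ∈ centralizer ({a ^ k} : Set G) := mem_cent.2 (by rw [← pow_succ, ← pow_succ'])
  have h1 : ⁅a, b⁆ ∈ OO (centralizer ({a ^ k} : Set G)) :=
    hloc _ hne (commutator_mem_commutator (mem_NN ha haH) (mem_NN hb (hT (subset_closure hb))))
  have h2 : ⁅a, b⁆ ∈ closure T := by
    rw [commutatorElement_def]
    exact (closure T).mul_mem (hTn.conj_mem b (subset_closure hb) a) ((closure T).inv_mem (subset_closure hb))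
  have h3 : ⁅a, b⁆ ∈ OO (centralizer ({a ^ k} : Set G)) ⊓ closure T := ⟨h1, h2⟩
  rw [odd_inf_normal hO hTn hT] at h3
  exact (commutatorElement_eq_one_iff_mul_comm.1 (Subgroup.mem_bot.1 h3)).symm

theorem main (I : Inp.{u}) {G : Type u} [Group G] [Finite G] {S T : Set G} (h : PT S T) :
    ⁅closure S, closure T⁆ ≤ Cfsg.oddCore G := main_aux I _ G rfl S T h

end Cfsg.Agent.GPF
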