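import Cfsg.Agent.GPF.Core

set_option autoImplicit false
set_option linter.all false

/-!
Product fusion data: two conjugation invariant sets of 2-elements.
-/

namespace Cfsg.Agent.GPF

open Subgroup
open scoped commutatorElement

/-- Two conjugation invariant sets of 2-elements, each closed under products inside 2-subgroups, commuting
inside 2-subgroups and meeting trivially. -/
structure PT {G : Type*} [Group G] (S T : Set G) : Prop where
  one_left : (1 : G) ∈ S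
  one_right : (1 : G) ∈ T
  conj_left : ∀ g a : G, a ∈ S → g * a * g⁻¹ ∈ S
  conj_right : ∀ g a : G, a ∈ T → g * a * g⁻¹ ∈ T
  two_left : ∀ a ∈ S, ∃ k : ℕ, a ^ 2 ^ k = 1
  two_right : ∀ a ∈ T, ∃ k : ℕ, a ^ 2 ^ k = 1
  mul_left : ∀ P : Subgroup G, IsPGroup 2 P → ∀ a ∈ S, ∀ b ∈ S, a ∈ P → b ∈ P → a * b ∈ S
  mul_right : ∀ P : Subgroup G, IsPGroup 2 P → ∀ a ∈ T, ∀ b ∈ T, a ∈ P → b ∈ P → a * b ∈ T
  comm : ∀ P : Subgroup G, IsPGroup 2 P → ∀ a ∈ S, ∀ b ∈ T, a ∈ P → b ∈ P → a * b = b * a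
  disj : ∀ a ∈ S, a ∈ T → a = 1

variable {G : Type*} [Group G]

theorem isPGroup_zpowers {a : G} (h : ∃ k : ℕ, a ^ 2 ^ k = 1) : IsPGroup 2 (zpowers a) := by
  obtain ⟨k, hk⟩ := h
  rintro ⟨x, hx⟩
  obtain ⟨n, rfl⟩ := mem_zpowers_iff.1 hx
  refine ⟨k, Subtype.ext ?_⟩
  push_cast
  rw [← zpow_natCast, ← zpow_mul, mul_comm, zpow_mul, zpow_natCast, hk, one_zpow]

theorem two_pow_of_mem {P : Subgroup G} (hP : IsPGroup 2 P) {a : G} (ha : a ∈ P) : ∃ k : ℕ, a ^ 2 ^ k = 1 := by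
  obtain ⟨k, hk⟩ := hP ⟨a, ha⟩
  exact ⟨k, congrArg Subtype.val hk⟩

theorem centralizer_zpowers_eq (x : G) : centralizer (zpowers x : Set G) = centralizer ({x} : Set G) := by
  rw [zpowers_eq_closure, centralizer_closure]

/-- the subgroup generated by two commuting 2-elements is a 2-group -/
theorem exists_pgroup_of_commute {a b : G} (ha : ∃ k : ℕ, a ^ 2 ^ k = 1) (hb : ∃ k : ℕ, b ^ 2 ^ k = 1)
    (hab : a * b = b * a) : ∃ P : Subgroup G, IsPGroup 2 P ∧ a ∈ P ∧ b ∈ P := by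
  refine ⟨zpowers a ⊔ zpowers b, ?_, mem_sup_left (mem_zpowers a), mem_sup_right (mem_zpowers b)⟩
  refine (isPGroup_zpowers ha).to_sup_of_normal_left' (isPGroup_zpowers hb) ?_
  intro x hx
  have h1 : zpowers b ≤ centralizer (zpowers a : Set G) := by
    rw [zpowers_le, centralizer_zpowers_eq]
    rw [mem_centralizer_singleton_iff]
    exact hab.symm
  exact Subgroup.centralizer_le_normalizer _ (h1 hx)

theorem exists_invol_pow {a : G} (h : ∃ k : ℕ, a ^ 2 ^ k = 1) (ha : a ≠ 1) :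
    ∃ n : ℕ, (a ^ n) ^ 2 = 1 ∧ a ^ n ≠ 1 := by
  classical
  have h0 := Nat.find_spec h
  have hm : Nat.find h ≠ 0 := by
    intro h1
    rw [h1, pow_zero, pow_one] at h0
    exact ha h0
  obtain ⟨m, hm⟩ := Nat.exists_eq_succ_of_ne_zero hm
  refine ⟨2 ^ m, ?_, ?_⟩
  · rw [← pow_mul, ← pow_succ]
    rw [hm] at h0
    exact h0
  · exact Nat.find_min h (m := m) (by omega)

namespace PT

variable {S T : Set G}

theorem symm (h : PT S T) : PT T S where
  one_left := h.one_right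
  one_right := h.one_left
  conj_left := h.conj_right
  conj_right := h.conj_left
  two_left := h.two_right
  two_right := h.two_left
  mul_left := h.mul_right
  mul_right := h.mul_left
  comm := fun P hP a ha b hb haP hbP => (h.comm P hP b hb a ha hbP haP).symm
  disj := fun a ha hb => h.disj a hb ha

theorem pow_left (h : PT S T) {a : G} (ha : a ∈ S) (n : ℕ) : a ^ n ∈ S := by
  induction n with
  | zero => rw [pow_zero]; exact h.one_left
  | succ n ih =>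
    rw [pow_succ]
    exact h.mul_left (zpowers a) (isPGroup_zpowers (h.two_left a ha)) _ ih _ ha (npow_mem_zpowers a n)
      (mem_zpowers a)

theorem inv_left (h : PT S T) {a : G} (ha : a ∈ S) : a⁻¹ ∈ S := by
  obtain ⟨k, hk⟩ := h.two_left a ha
  have h1 : a⁻¹ = a ^ (2 ^ k - 1) := by
    rw [inv_eq_iff_mul_eq_one, ← pow_succ', Nat.sub_add_cancel Nat.one_le_two_pow, hk]
  rw [h1]
  exact h.pow_left ha _

theorem zpow_left (h : PT S T) {a : G} (ha : a ∈ S) (n : ℤ) : a ^ n ∈ S := by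
  obtain ⟨k, rfl | rfl⟩ := n.eq_nat_or_neg
  · rw [zpow_natCast]; exact h.pow_left ha k
  · rw [zpow_neg, zpow_natCast]; exact h.inv_left (h.pow_left ha k)

theorem zpowers_left (h : PT S T) {a b : G} (ha : a ∈ S) (hb : b ∈ zpowers a) : b ∈ S := by
  obtain ⟨n, rfl⟩ := mem_zpowers_iff.1 hb
  exact h.zpow_left ha n

/-- restriction to a subgroup -/
theorem restrict (h : PT S T) (H : Subgroup G) : PT (H.subtype ⁻¹' S) (H.subtype ⁻¹' T) where
  one_left := h.one_left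
  one_right := h.one_right
  conj_left := fun g a ha => h.conj_left g a ha
  conj_right := fun g a ha => h.conj_right g a ha
  two_left := fun a ha => by
    obtain ⟨k, hk⟩ := h.two_left a ha
    exact ⟨k, Subtype.ext (by push_cast; exact hk)⟩
  two_right := fun a ha => by
    obtain ⟨k, hk⟩ := h.two_right a ha
    exact ⟨k, Subtype.ext (by push_cast; exact hk)⟩
  mul_left := fun P hP a ha b hb haP hbP =>
    h.mul_left (P.map H.subtype) (hP.map _) a ha b hb ⟨a, haP, rfl⟩ ⟨b, hbP, rfl⟩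
  mul_right := fun P hP a ha b hb haP hbP =>
    h.mul_right (P.map H.subtype) (hP.map _) a ha b hb ⟨a, haP, rfl⟩ ⟨b, hbP, rfl⟩
  comm := fun P hP a ha b hb haP hbP => Subtype.ext
    (h.comm (P.map H.subtype) (hP.map _) a ha b hb ⟨a, haP, rfl⟩ ⟨b, hbP, rfl⟩)
  disj := fun a ha hb => Subtype.ext (h.disj a ha hb)

/-- images under a surjection along which 2-subgroups lift well -/
theorem image {G' : Type*} [Group G'] (h : PT S T) (f : G →* G') (hf : Function.Surjective f)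
    (hlift : ∀ P' : Subgroup G', IsPGroup 2 P' → ∃ P : Subgroup G, IsPGroup 2 P ∧
      (∀ a ∈ S, f a ∈ P' → ∃ b ∈ S, b ∈ P ∧ f b = f a) ∧ (∀ a ∈ T, f a ∈ P' → ∃ b ∈ T, b ∈ P ∧ f b = f a))
    (hd : ∀ a ∈ S, ∀ b ∈ T, f a = f b → f a = 1) : PT (f '' S) (f '' T) where
  one_left := ⟨1, h.one_left, map_one f⟩
  one_right := ⟨1, h.one_right, map_one f⟩
  conj_left := by
    rintro g _ ⟨a, ha, rfl⟩
    obtain ⟨g, rfl⟩ := hf g
    exact ⟨g * a * g⁻¹, h.conj_left g a ha, by simp⟩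
  conj_right := by
    rintro g _ ⟨a, ha, rfl⟩
    obtain ⟨g, rfl⟩ := hf g
    exact ⟨g * a * g⁻¹, h.conj_right g a ha, by simp⟩
  two_left := by
    rintro _ ⟨a, ha, rfl⟩
    obtain ⟨k, hk⟩ := h.two_left a ha
    exact ⟨k, by rw [← map_pow, hk, map_one]⟩
  two_right := by
    rintro _ ⟨a, ha, rfl⟩
    obtain ⟨k, hk⟩ := h.two_right a ha
    exact ⟨k, by rw [← map_pow, hk, map_one]⟩
  mul_left := by
    rintro P' hP' _ ⟨a, ha, rfl⟩ _ ⟨b, hb, rfl⟩ haP hbP
    obtain ⟨P, hP, h1, h2⟩ := hlift P' hP'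
    obtain ⟨a', ha', ha'P, hfa⟩ := h1 a ha haP
    obtain ⟨b', hb', hb'P, hfb⟩ := h1 b hb hbP
    exact ⟨a' * b', h.mul_left P hP a' ha' b' hb' ha'P hb'P, by rw [map_mul, hfa, hfb]⟩
  mul_right := by
    rintro P' hP' _ ⟨a, ha, rfl⟩ _ ⟨b, hb, rfl⟩ haP hbP
    obtain ⟨P, hP, h1, h2⟩ := hlift P' hP'
    obtain ⟨a', ha', ha'P, hfa⟩ := h2 a ha haP
    obtain ⟨b', hb', hb'P, hfb⟩ := h2 b hb hbP
    exact ⟨a' * b', h.mul_right P hP a' ha' b' hb' ha'P hb'P, by rw [map_mul, hfa, hfb]⟩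
  comm := by
    rintro P' hP' _ ⟨a, ha, rfl⟩ _ ⟨b, hb, rfl⟩ haP hbP
    obtain ⟨P, hP, h1, h2⟩ := hlift P' hP'
    obtain ⟨a', ha', ha'P, hfa⟩ := h1 a ha haP
    obtain ⟨b', hb', hb'P, hfb⟩ := h2 b hb hbP
    rw [← hfa, ← hfb, ← map_mul, ← map_mul, h.comm P hP a' ha' b' hb' ha'P hb'P]
  disj := by
    rintro _ ⟨a, ha, rfl⟩ ⟨b, hb, hab⟩
    exact hd a ha b hb hab.symm

end PT

end Cfsg.Agent.GPF
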