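import Cfsg.Agent.GPF.Main
import Cfsg.Agent.Transfer.Fusion

set_option autoImplicit false
set_option linter.all false

/-!
Strongly closed subgroups give product fusion data.
-/

namespace Cfsg.Agent.GPF

open Subgroup
open scoped commutatorElement Pointwise

universe u

variable {G : Type*} [Group G]

/-- the elements conjugate into `S` -/
def cs (S : Subgroup G) : Set G := {x | ∃ g : G, g * x * g⁻¹ ∈ S}

theorem mem_cs_of_mem {S : Subgroup G} {x : G} (hx : x ∈ S) : x ∈ cs S := ⟨1, by simpa using hx⟩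

theorem cs_conj (S : Subgroup G) (g a : G) (ha : a ∈ cs S) : g * a * g⁻¹ ∈ cs S := by
  obtain ⟨k, hk⟩ := ha
  refine ⟨k * g⁻¹, ?_⟩
  have : k * g⁻¹ * (g * a * g⁻¹) * (k * g⁻¹)⁻¹ = k * a * k⁻¹ := by group
  rwa [this]

theorem closure_cs (S : Subgroup G) : closure (cs S) = normalClosure (S : Set G) := by
  apply le_antisymm
  · rw [closure_le]
    rintro x ⟨g, hg⟩
    have h1 : g⁻¹ * (g * x * g⁻¹) * g⁻¹⁻¹ ∈ normalClosure (S : Set G) :=
      normalClosure_normal.conj_mem _ (subset_normalClosure hg) g⁻¹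
    have : g⁻¹ * (g * x * g⁻¹) * g⁻¹⁻¹ = x := by group
    rwa [this] at h1
  · haveI : (closure (cs S)).Normal := by
      rw [← normalizer_eq_top_iff, eq_top_iff]
      exact le_normalizer_closure fun g _ x hx => cs_conj S g x hx
    exact normalClosure_le_normal fun x hx => subset_closure (mem_cs_of_mem hx)

variable [Finite G]

/-- a conjugate in the Sylow subgroup -/
theorem cs_mem {S : Subgroup G} {P : Subgroup G} (hsc : Cfsg.IsStronglyClosed S P) {x h : G} (hx : x ∈ cs S)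
    (hP : h * x * h⁻¹ ∈ P) : h * x * h⁻¹ ∈ S := by
  obtain ⟨g, hg⟩ := hx
  have e : h * x * h⁻¹ = (h * g⁻¹) * (g * x * g⁻¹) * (h * g⁻¹)⁻¹ := by group
  rw [e] at hP ⊢
  exact hsc.2 _ hg _ hP

theorem pt_of_sc (P : Sylow 2 G) {S T : Subgroup G} (hcomm : ∀ a ∈ S, ∀ b ∈ T, a * b = b * a) (hdisj : S ⊓ T = ⊥)
    (hS : Cfsg.IsStronglyClosed S (P : Subgroup G)) (hT : Cfsg.IsStronglyClosed T (P : Subgroup G)) :
    PT (cs S) (cs T) := by
  haveI : Fact (Nat.Prime 2) := ⟨Nat.prime_two⟩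
  have key : ∀ Q : Subgroup G, IsPGroup 2 Q → ∃ h : G, ∀ q ∈ Q, h * q * h⁻¹ ∈ P := by
    intro Q hQ
    obtain ⟨R, hR⟩ := hQ.exists_le_sylow
    obtain ⟨h, hh⟩ := MulAction.exists_smul_eq G R P
    refine ⟨h, fun q hq => ?_⟩
    rw [← hh]
    exact ⟨q, hR hq, by simp [MulAut.conj_apply]⟩
  have htwo : ∀ S : Subgroup G, S ≤ P → ∀ a ∈ cs S, ∃ k : ℕ, a ^ 2 ^ k = 1 := by
    rintro S hSP a ⟨g, hg⟩
    obtain ⟨k, hk⟩ := two_pow_of_mem P.2 (hSP hg)
    refine ⟨k, ?_⟩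
    rw [conj_pow] at hk
    have : a ^ 2 ^ k = g⁻¹ * (g * a ^ 2 ^ k * g⁻¹) * g := by group
    rw [this, hk]; group
  have hmul : ∀ S : Subgroup G, Cfsg.IsStronglyClosed S (P : Subgroup G) → ∀ Q : Subgroup G, IsPGroup 2 Q →
      ∀ a ∈ cs S, ∀ b ∈ cs S, a ∈ Q → b ∈ Q → a * b ∈ cs S := by
    intro S hS Q hQ a ha b hb haQ hbQ
    obtain ⟨h, hh⟩ := key Q hQ
    refine ⟨h, ?_⟩
    have : h * (a * b) * h⁻¹ = (h * a * h⁻¹) * (h * b * h⁻¹) := by group
    rw [this]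
    exact S.mul_mem (cs_mem hS ha (hh a haQ)) (cs_mem hS hb (hh b hbQ))
  exact
    { one_left := mem_cs_of_mem S.one_mem
      one_right := mem_cs_of_mem T.one_mem
      conj_left := cs_conj S
      conj_right := cs_conj T
      two_left := htwo S hS.1
      two_right := htwo T hT.1
      mul_left := hmul S hS
      mul_right := hmul T hT
      comm := by
        intro Q hQ a ha b hb haQ hbQ
        obtain ⟨h, hh⟩ := key Q hQ
        have h1 := hcomm _ (cs_mem hS ha (hh a haQ)) _ (cs_mem hT hb (hh b hbQ))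
        have e1 : a * b = h⁻¹ * (h * a * h⁻¹ * (h * b * h⁻¹)) * h := by group
        have e2 : b * a = h⁻¹ * (h * b * h⁻¹ * (h * a * h⁻¹)) * h := by group
        rw [e1, e2, h1]
      disj := by
        intro a ha hb
        obtain ⟨h, hh⟩ := key _ (isPGroup_zpowers (htwo S hS.1 a ha))
        have h1 : h * a * h⁻¹ ∈ S ⊓ T := ⟨cs_mem hS ha (hh a (mem_zpowers a)), cs_mem hT hb (hh a (mem_zpowers a))⟩
        rw [hdisj] at h1
        have h2 := Subgroup.mem_bot.1 h1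
        have : a = h⁻¹ * (h * a * h⁻¹) * h := by group
        rw [this, h2]; group }

/-- the normal closures commute modulo the odd core -/
theorem main_sc (I : Inp.{u}) {G : Type u} [Group G] [Finite G] (P : Sylow 2 G) {S T : Subgroup G}
    (hcomm : ∀ a ∈ S, ∀ b ∈ T, a * b = b * a) (hdisj : S ⊓ T = ⊥)
    (hS : Cfsg.IsStronglyClosed S (P : Subgroup G)) (hT : Cfsg.IsStronglyClosed T (P : Subgroup G)) :
    ⁅normalClosure (S : Set G), normalClosure (T : Set G)⁆ ≤ Cfsg.oddCore G := by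
  rw [← closure_cs, ← closure_cs]
  exact main I (pt_of_sc P hcomm hdisj hS hT)

/-- The Sylow subgroup of the normal closure, in case of a direct product. -/
theorem inf_normalClosure (P : Sylow 2 G) {S T : Subgroup G} (hprod : Cfsg.IsInternalDirectProduct S T (P : Subgroup G))
    (hS : Cfsg.IsStronglyClosed S (P : Subgroup G))
    (hc : ⁅normalClosure (S : Set G), normalClosure (T : Set G)⁆ = ⊥) :
    (P : Subgroup G) ⊓ normalClosure (S : Set G) = S := by
  haveI : Fact (Nat.Prime 2) := ⟨Nat.prime_two⟩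
  obtain ⟨hSP, hTP, hcomm, hdisj, hsup⟩ := hprod
  set N := normalClosure (S : Set G) with hN
  have hSN : S ≤ N := subset_normalClosure
  have hNn : N.Normal := normalClosure_normal
  apply le_antisymm _ (le_inf hSP hSN)
  -- decomposition
  have hdec : ∀ x ∈ (P : Subgroup G), x ∈ N → ∃ s ∈ S, ∃ t ∈ T, t ∈ N ∧ s * t = x := by
    intro x hxP hxN
    rw [← hsup] at hxP
    obtain ⟨s, hs, t, ht, rfl⟩ := mem_sup_norm (H := S) (K := T) (by
      intro s hs
      exact Subgroup.centralizer_le_normalizer _ (mem_centralizer_iff.2 fun t ht => (hcomm s hs t ht).symm)) hxP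
    refine ⟨s, hs, t, ht, ?_, rfl⟩
    have : t = s⁻¹ * (s * t) := by group
    rw [this]
    exact N.mul_mem (N.inv_mem (hSN hs)) hxN
  have hTc : ∀ t ∈ T, ∀ n ∈ N, t * n = n * t := by
    intro t ht n hn
    have h1 : ⁅n, t⁆ ∈ ⁅N, normalClosure (T : Set G)⁆ := commutator_mem_commutator hn (subset_normalClosure ht)
    rw [hc] at h1
    exact (commutatorElement_eq_one_iff_mul_comm.1 (Subgroup.mem_bot.1 h1)).symm
  -- focal subgroup
  set P1 : Sylow 2 N := Transfer.sylowInf P N with hP1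
  have hP1' : ∀ x : N, x ∈ (P1 : Subgroup N) ↔ (x : G) ∈ (P : Subgroup G) := by
    intro x
    rw [hP1, Transfer.sylowInf_coe]
    exact Subgroup.mem_subgroupOf
  have hfoc : ∀ c : N, c ∈ _root_.commutator N → (c : G) ∈ (P : Subgroup G) → (c : G) ∈ S := by
    intro c hc1 hc2
    have h1 : c ∈ (P1 : Subgroup N).focalSubgroup := by
      rw [← commutator_inf_eq_focalSubgroup]
      exact ⟨hc1, (hP1' c).2 hc2⟩
    have h2 : (P1 : Subgroup N).focalSubgroup ≤ S.subgroupOf N := by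
      rw [focalSubgroup_def, closure_le]
      rintro g ⟨hg, x, hx, v, rfl⟩
      rw [hP1'] at hg hx
      obtain ⟨s, hs, t, ht, htN, hst⟩ := hdec x hx x.2
      rw [SetLike.mem_coe, Subgroup.mem_subgroupOf]
      have h3 : ((⁅x, v⁆ : N) : G) = s * (v * s⁻¹ * (v : G)⁻¹) := by
        have h4 := hTc t ht v v.2
        have e1 : ((⁅x, v⁆ : N) : G) = x * v * (x : G)⁻¹ * (v : G)⁻¹ := rfl
        rw [e1, ← hst]
        calc s * t * v * (s * t)⁻¹ * (v : G)⁻¹ = s * (t * v) * t⁻¹ * s⁻¹ * (v : G)⁻¹ := by group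
          _ = s * (v * t) * t⁻¹ * s⁻¹ * (v : G)⁻¹ := by rw [h4]
          _ = s * (v * s⁻¹ * (v : G)⁻¹) := by group
      rw [h3]
      refine S.mul_mem hs (hS.2 _ (S.inv_mem hs) _ ?_)
      have h5 : (v : G) * s⁻¹ * (v : G)⁻¹ = s⁻¹ * ((⁅x, v⁆ : N) : G) := by rw [h3]; group
      rw [h5]
      exact mul_mem (inv_mem (hSP hs)) hg
    exact Subgroup.mem_subgroupOf.1 (h2 h1)
  -- `N ≤ S N'`
  set N' : Subgroup G := (_root_.commutator N).map N.subtype with hN'
  have hN'n : N'.Normal := by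
    rw [hN']
    infer_instance
  have hNS : N ≤ S ⊔ N' := by
    rw [hN, ← closure_cs, closure_le]
    intro x hx
    have hxN : x ∈ N := by
      rw [hN, ← closure_cs]; exact subset_closure hx
    obtain ⟨k, hk⟩ : ∃ k : ℕ, x ^ 2 ^ k = 1 := by
      obtain ⟨g, hg⟩ := hx
      obtain ⟨k, hk⟩ := two_pow_of_mem P.2 (hSP hg)
      refine ⟨k, ?_⟩
      rw [conj_pow] at hk
      have : x ^ 2 ^ k = g⁻¹ * (g * x ^ 2 ^ k * g⁻¹) * g := by group
      rw [this, hk]; group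
    have hx2 : IsPGroup 2 (zpowers (⟨x, hxN⟩ : N)) := isPGroup_zpowers ⟨k, Subtype.ext (by push_cast; exact hk)⟩
    obtain ⟨R, hR⟩ := hx2.exists_le_sylow
    obtain ⟨n, hn⟩ := MulAction.exists_smul_eq N R P1
    have h1 : n * ⟨x, hxN⟩ * n⁻¹ ∈ (P1 : Subgroup N) := by
      rw [← hn]
      exact ⟨⟨x, hxN⟩, hR (mem_zpowers _), by simp [MulAut.conj_apply]⟩
    rw [hP1'] at h1
    have h2 : (n : G) * x * (n : G)⁻¹ ∈ S := cs_mem hS hx h1
    have h3 : x = (n * x * (n : G)⁻¹) * (((⁅n * (⟨x, hxN⟩ : N)⁻¹ * n⁻¹, n⁻¹⁆ : N)) : G) := by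
      have e1 : ((⁅n * (⟨x, hxN⟩ : N)⁻¹ * n⁻¹, n⁻¹⁆ : N) : G) =
        (n : G) * x⁻¹ * (n : G)⁻¹ * (n : G)⁻¹ * ((n : G) * x⁻¹ * (n : G)⁻¹)⁻¹ * ((n : G)⁻¹)⁻¹ := rfl
      rw [e1]; group
    rw [SetLike.mem_coe, h3]
    refine mul_mem (mem_sup_left h2) (mem_sup_right ⟨(⁅n * (⟨x, hxN⟩ : N)⁻¹ * n⁻¹, n⁻¹⁆ : N), ?_, rfl⟩)
    rw [commutator_def]
    exact commutator_mem_commutator (mem_top _) (mem_top _)
  rintro x ⟨hxP, hxN⟩
  obtain ⟨s, hs, t, ht, htN, rfl⟩ := hdec x hxP hxN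
  obtain ⟨b, hb, c, hc', hbc⟩ := mem_sup_norm (H := S) (K := N') (x := t) (by
    rw [normalizer_eq_top_iff.2 hN'n]; exact le_top) (hNS htN)
  obtain ⟨c', hc1, rfl⟩ := hc'
  have hcP : (c' : G) ∈ (P : Subgroup G) := by
    have : (c' : G) = b⁻¹ * t := by rw [← hbc]; simp
    rw [this]
    exact mul_mem (inv_mem (hSP hb)) (hTP ht)
  have hcS := hfoc c' hc1 hcP
  have htS : t ∈ S := by
    rw [← hbc]
    exact S.mul_mem hb hcS
  exact S.mul_mem hs htS

end Cfsg.Agent.GPF
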